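import Cfsg.Agent.Gag.Bas2
import Cfsg.Agent.Gag.Rad
import Cfsg.Agent.FGS.RankOneStruct2
import Cfsg.Agent.Suz.Huppert

set_option autoImplicit false
set_option linter.unusedSectionVars false
open Matrix MatrixGroups Cfsg.Agent.Perm.Fpf Cfsg.Agent.PLocal

namespace Cfsg.Agent.Gag

universe u v
variable {p : ℕ} {G : Type u} {V : Type v} [Group G] [Finite G] [AddCommGroup V] [Finite V] [DistribMulAction G V]

/-- `O_p` of a normal subgroup is characteristic, so normal in `G`. -/
theorem oa_core [Fact p.Prime] (hO : pCore p G = ⊥) (K : Subgroup G) [K.Normal] : pCore p K = ⊥ :=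
  pCore_sub_eq_bot hO K

/-- `G` perfect, `R ⊴ G` solvable. `F = F(R)` is nilpotent of order prime to `p` (`O_p(G) = 1`); each `O_r(R)` is normal in `G`
and cyclic (`Sr.cyc`; `r` odd) or cyclic / generalized quaternion (`r = 2`; `Sr.abCyc`, `RankOne.cyclic_or_quaternion'`
as in `S4840.not_dvd`), so has a solvable automorphism group (abelian, a 2-group, or `S₄` = `S3742`); the perfect `G` centralises it. So
`G` centralises `F`, `R ≤ C_R(F) ≤ F` (`Grp.centralizer_fitting_le`), and `G` centralises `R`. -/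
theorem oa_central (h : Sr p G V) (hO : pCore p G = ⊥) (hP : Group.IsPerfect G) (R : Subgroup G) [R.Normal]
    (hR : Group.IsSolvable R) : R ≤ Subgroup.center G := by
  have h1 := rad h hO (L := ⊤) (N := R) hP.commutator_eq_top hR
  intro r hr
  exact Subgroup.mem_center_iff.2 fun g =>
    ((Subgroup.mem_centralizer_iff.1 (h1 (Subgroup.mem_top g))) r hr).symm

/-- An odd prime `r ∣ |Z(G)|` is not `p` (`O_p(G) = 1`), so a Sylow `r`-subgroup is cyclic (`Sr.cyc`), and transfer into
an abelian Sylow subgroup gives `G' ∩ Z(G) ∩ R = 1` (library `Transfer/*`; on a central `z` the transfer is `z ^ |G : R|`), against perfectness. -/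
theorem oa_two (h : Sr p G V) (hO : pCore p G = ⊥) (hP : Group.IsPerfect G) :
    IsPGroup 2 (Subgroup.center G) := by
  haveI : Fact (Nat.Prime 2) := ⟨Nat.prime_two⟩
  refine IsPGroup.iff_card.2 ⟨_, Nat.eq_prime_pow_of_unique_prime_dvd Nat.card_pos.ne' ?_⟩
  intro r hr hd
  by_contra h2
  haveI : Fact r.Prime := ⟨hr⟩
  obtain ⟨⟨x, hc⟩, hx⟩ := exists_prime_orderOf_dvd_card' r hd
  rw [← Subgroup.orderOf_coe] at hx
  change orderOf x = r at hx
  have hrp : r ≠ p := by
    rintro rfl
    haveI : (Subgroup.zpowers x).Normal := ⟨fun a ha g => by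
      have := Subgroup.mem_center_iff.1 ((Subgroup.zpowers_le_of_mem hc) ha) g
      rw [this, mul_inv_cancel_right]; exact ha⟩
    have h1 := eq_bot_of_normal_pgroup hO (Subgroup.zpowers x)
      (IsPGroup.of_card (n := 1) (by rw [Nat.card_zpowers, hx, pow_one]))
    rw [Subgroup.zpowers_eq_bot] at h1
    rw [h1, orderOf_one] at hx
    exact hr.one_lt.ne hx
  obtain ⟨P⟩ : Nonempty (Sylow r G) := inferInstance
  haveI := h.cyc hrp h2 P.isPGroup'
  letI : CommGroup P := IsCyclic.commGroup
  have h1 := MonoidHom.transfer_eq_pow (H := P) (MonoidHom.id P) x (fun k g _ => by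
    rw [mul_assoc, ← Subgroup.mem_center_iff.1 (Subgroup.pow_mem _ hc k) g, inv_mul_cancel_left])
  have h3 : x ∈ (MonoidHom.transfer (H := P) (MonoidHom.id P)).ker :=
    Abelianization.commutator_subset_ker _ (hP.commutator_eq_top ▸ Subgroup.mem_top x)
  rw [MonoidHom.mem_ker, h1] at h3
  have h4 : x ^ (P : Subgroup G).index = 1 := congrArg Subtype.val h3
  exact P.not_dvd_index (hx.symm.dvd.trans (orderOf_dvd_of_pow_eq_one h4))

end Cfsg.Agent.Gag
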