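import Cfsg.Agent.Gag.Bas2

set_option autoImplicit false
set_option linter.unusedSectionVars false
open Matrix MatrixGroups Cfsg.Agent.Perm.Fpf Cfsg.Agent.PLocal

namespace Cfsg.Agent.Gag

universe u v
variable {p : ℕ} {G : Type u} {V : Type v} [Group G] [Finite G] [AddCommGroup V] [Finite V] [DistribMulAction G V]

theorem od_top [Fact p.Prime] (hO : pCore p G = ⊥) (Z : Subgroup G) (hZ : ∀ x ∈ Z, ∀ y : G, y * x = x * y)
    {k : ℕ} (hk : Z.index ∣ p ^ k) : Z = ⊤ := by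
  have hp : p.Prime := Fact.out
  obtain ⟨P⟩ : Nonempty (Sylow p G) := inferInstance
  have co : ∀ {m : ℕ}, m ∣ (P : Subgroup G).index → m ∣ p ^ k → m = 1 := fun h1 h2 =>
    Nat.eq_one_of_dvd_coprimes (((Nat.Prime.coprime_iff_not_dvd hp).2 P.not_dvd_index).symm.pow_right k) h1 h2
  have h1 : Z ≤ Subgroup.normalizer ((P : Subgroup G) : Set G) :=
    le_trans (b := Subgroup.centralizer ((P : Subgroup G) : Set G)) (fun x hx y _ => hZ x hx y)
      (Subgroup.centralizer_le_normalizer _)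
  have h2 : (P : Subgroup G).Normal :=
    Subgroup.normalizer_eq_top_iff.1 (Subgroup.index_eq_one.1 (co (Subgroup.index_dvd_of_le Subgroup.le_normalizer)
      ((Subgroup.index_dvd_of_le h1).trans hk)))
  have h3 := eq_bot_of_normal_pgroup hO _ P.isPGroup'
  exact Subgroup.index_eq_one.1 (co (by rw [h3]; exact Subgroup.index_dvd_of_le bot_le) hk)

theorem od_sl (F : Type) [Field F] : ∃ i j : SL(2, F), i ^ 4 = 1 ∧ j ^ 4 = 1 ∧ i * j ≠ j * i := by
  refine ⟨⟨!![0, -1; 1, 0], by simp [Matrix.det_fin_two_of]⟩,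
    ⟨!![1, -2; 1, -1], by rw [Matrix.det_fin_two_of]; ring⟩, Subtype.ext ?_, Subtype.ext ?_, fun e => ?_⟩
  · change (!![0, -1; 1, 0] : Matrix (Fin 2) (Fin 2) F) ^ 4 = 1
    rw [Matrix.one_fin_two]
    simp [pow_succ]
  · change (!![1, -2; 1, -1] : Matrix (Fin 2) (Fin 2) F) ^ 4 = 1
    rw [Matrix.one_fin_two]
    norm_num [pow_succ]
  · have c : (!![0, -1; 1, 0] * !![1, -2; 1, -1] : Matrix (Fin 2) (Fin 2) F) = !![1, -2; 1, -1] * !![0, -1; 1, 0] :=
      congrArg Subtype.val e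
    have c' := congrFun (congrFun c 0) 0
    simp [Matrix.mul_apply, Fin.sum_univ_two] at c'
    exact one_ne_zero (α := F) (by linear_combination -c')

/-- `C = C_G(S) ⊴ G`, `C ⊓ S` is central in `C` with `p`-group quotient, so `C` is nilpotent (or: every Sylow `p`-subgroup `P` of `C` has
`C = P (C ⊓ S)`, so is normal); `O_p(G) = 1` makes `|C|` prime to `p`, so the relative index is `1`. -/
theorem od_cent [Fact p.Prime] (hO : pCore p G = ⊥) (S : Subgroup G) [S.Normal] {k : ℕ}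
    (hk : S.relIndex (Subgroup.centralizer (S : Set G)) ∣ p ^ k) :
    Subgroup.centralizer (S : Set G) = (Subgroup.center S).map S.subtype := by
  have h4 : Subgroup.centralizer (S : Set G) ≤ S :=
    Subgroup.subgroupOf_eq_top.1 (od_top (pCore_sub_eq_bot hO (Subgroup.centralizer (S : Set G))) _
      (fun x hx y => Subtype.ext (y.2 x hx).symm) hk)
  refine le_antisymm (fun x hx => ⟨⟨x, h4 hx⟩, Subgroup.mem_center_iff.2 fun y => Subtype.ext (hx y y.2), rfl⟩) ?_
  rintro _ ⟨x, hx, rfl⟩ y hy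
  exact congrArg Subtype.val (Subgroup.mem_center_iff.1 hx ⟨y, hy⟩)

/-- `p` odd: an involution `t` has no nonzero fixed vector (`fpf`), and `t • (t • v + v) = t • v + v`, so `t • v = -v`; faithful. -/
theorem od_inv (h : Sr p G V) (hp : p ≠ 2) {s t : G} (hs : orderOf s = 2) (ht : orderOf t = 2) : s = t :=
  h.ρ_inj (AddMonoidHom.ext fun v => (h.invol hp hs v).trans (h.invol hp ht v).symm)

theorem od_mem (h : Sr p G V) {x y : G} (c : Commute x y) (hx : (orderOf x).Coprime p)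
    (hd : orderOf y ∣ orderOf x) : y ∈ Subgroup.zpowers x := by
  let f := MonoidHom.noncommCoprod (Subgroup.zpowers x).subtype (Subgroup.zpowers y).subtype (by
    rintro ⟨_, m, rfl⟩ ⟨_, n, rfl⟩
    exact c.zpow_zpow m n)
  have hK : (Nat.card f.range).Coprime p := by
    refine Nat.Coprime.coprime_dvd_left (Subgroup.card_range_dvd f) ?_
    rw [Nat.card_prod, Nat.card_zpowers, Nat.card_zpowers]
    exact hx.mul_left (hx.coprime_dvd_left hd)
  have mx : x ∈ f.range := ⟨(⟨x, Subgroup.mem_zpowers x⟩, 1), mul_one x⟩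
  have my : y ∈ f.range := ⟨(1, ⟨y, Subgroup.mem_zpowers y⟩), one_mul y⟩
  obtain ⟨k, hk⟩ := (h.abCyc hK).mem_zpowers (x := ⟨x, mx⟩) (y := ⟨y, my⟩) (Subtype.ext c)
    (by rwa [Subgroup.orderOf_mk, Subgroup.orderOf_mk])
  exact ⟨k, congrArg Subtype.val hk⟩

/-- `p` odd, `S ≅ SL(2, F)`, `|F|` odd. `S` has non-commuting elements `i, j` of order 4 (`S0261`: quaternion Sylow subgroup; or explicit matrices
`!![0,-1;1,0]` and a conjugate by `!![1,1;0,1]`). If `4 ∣ |C|` take `T ≤ C` of order 4; it has one involution (`od_inv`), so is cyclic, `T = ⟨t⟩`.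
`⟨t, i⟩` is an abelian 2-group, so cyclic (`abCyc`) with a unique subgroup of order 4: `i ∈ ⟨t⟩`; also `j ∈ ⟨t⟩`, so `i, j` commute. -/
theorem od_four (h : Sr p G V) (hp : p ≠ 2) (S : Subgroup G) {F : Type} [Field F] [Fintype F]
    (hF : Odd (Fintype.card F)) (e : S ≃* SL(2, F)) :
    ¬ 4 ∣ Nat.card (Subgroup.centralizer (S : Set G)) := by
  intro h4
  have : Fact (Nat.Prime 2) := ⟨Nat.prime_two⟩
  have c2 : (2 ^ 2).Coprime p := ((Nat.coprime_primes Nat.prime_two h.prime).2 hp.symm).pow_left 2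
  obtain ⟨T, hT⟩ := Sylow.exists_subgroup_card_pow_prime 2 (n := 2) h4
  rw [← Subgroup.card_map_of_injective (Subgroup.subtype_injective _)] at hT
  have hm := IsPGroup.isMulCommutative_of_card_eq_prime_sq hT
  have hc := isCyclic_of_surjective _ (Subgroup.topEquiv.surjective) (hH := h.abCyc (hT ▸ c2) ⊤ inferInstance)
  obtain ⟨⟨t, ht⟩, ot⟩ := hc.exists_ofOrder_eq_natCard
  rw [Subgroup.orderOf_mk, hT] at ot
  have key : ∀ a : SL(2, F), a ^ 4 = 1 → (e.symm a : G) ∈ Subgroup.zpowers t := fun a ha =>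
    od_mem h (Subgroup.map_subtype_le T ht _ (e.symm a).2).symm (ot ▸ c2) (by
      rw [ot]
      exact orderOf_dvd_of_pow_eq_one (by rw [← Subgroup.coe_pow, ← map_pow]; exact ha ▸ by simp))
  obtain ⟨i, j, hi, hj, hij⟩ := od_sl F
  obtain ⟨m, hm⟩ := key i hi
  obtain ⟨n, hn⟩ := key j hj
  have c : e.symm (i * j) = e.symm (j * i) := by
    rw [map_mul, map_mul]
    apply Subtype.ext
    rw [Subgroup.coe_mul, Subgroup.coe_mul, ← hm, ← hn]
    exact Commute.zpow_zpow_self t m n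
  exact hij (e.symm.injective c)

/-- An odd prime `r ≠ p` dividing `|S|` and `|C|`: take `x ∈ S`, `y ∈ C` of order `r`; `⟨x, y⟩` is an abelian `r`-group, so cyclic, so
`x ∈ ⟨y⟩ ≤ C`, `x ∈ Z(S)`. -/
theorem od_odd (h : Sr p G V) (S : Subgroup G) {r : ℕ} (hr : r.Prime) (hrp : r ≠ p) (h1 : r ∣ Nat.card S)
    (h2 : ¬ r ∣ Nat.card (Subgroup.center S)) : ¬ r ∣ Nat.card (Subgroup.centralizer (S : Set G)) := by
  intro h3
  have := Fact.mk hr
  obtain ⟨x, hx⟩ := exists_prime_orderOf_dvd_card' r h1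
  obtain ⟨y, hy⟩ := exists_prime_orderOf_dvd_card' r h3
  rw [← Subgroup.orderOf_coe] at hy
  have m := Subgroup.zpowers_le.2 y.2 (od_mem h (y.2 x x.2).symm
    (hy ▸ (Nat.coprime_primes hr h.prime).2 hrp) (by rw [hy, Subgroup.orderOf_coe, hx]))
  exact h2 (hx ▸ Subgroup.orderOf_dvd_natCard _ (Subgroup.mem_center_iff.2 fun z => Subtype.ext (m z z.2)))

end Cfsg.Agent.Gag
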