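import Cfsg.Agent.Gag.Def
import Cfsg.Agent.KSG.AutPSL2
import Cfsg.Agent.KSG.AutPkg
import Cfsg.Agent.Class.SL2Cover
import Cfsg.Agent.Class.SL2Sylow

set_option autoImplicit false
set_option linter.unusedSectionVars false
open Matrix MatrixGroups Cfsg.Agent.Perm.Fpf Cfsg.Agent.PLocal

namespace Cfsg.Agent.Gag

universe u v
variable {p : ℕ} {G : Type u} {V : Type v} [Group G] [Finite G] [AddCommGroup V] [Finite V] [DistribMulAction G V]

theorem oe_inj {X : Type*} [Group X] (hX : commutator X = ⊤) {α : MulAut X}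
    (h : KSG.quotCenterAut α = 1) : α = 1 := by
  have k : ∀ a, ∃ z ∈ Subgroup.center X, α a = a * z := fun a => by
    have := DFunLike.congr_fun h (QuotientGroup.mk a)
    rw [KSG.quotCenterAut_mk, MulAut.one_apply, eq_comm, QuotientGroup.eq] at this
    exact ⟨_, this, by simp⟩
  have : commutator X ≤ (α : X →* X).eqLocus (MonoidHom.id X) := by
    rw [commutator_def, Subgroup.commutator_le]
    intro a _ b _
    obtain ⟨z, hz, ea⟩ := k a
    obtain ⟨w, hw, eb⟩ := k b
    change α _ = _
    have c1 := Subgroup.mem_center_iff.1 hz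
    have c2 := Subgroup.mem_center_iff.1 hw
    simp only [commutatorElement_def, map_mul, map_inv, ea, eb, MonoidHom.id_apply]
    calc a * z * (b * w) * (a * z)⁻¹ * (b * w)⁻¹ = a * (z * (b * w) * z⁻¹) * a⁻¹ * (b * w)⁻¹ := by group
      _ = a * b * (w * a⁻¹ * w⁻¹) * b⁻¹ := by rw [← c1 (b * w)]; group
      _ = _ := by rw [← c2 a⁻¹]; group
  ext a
  exact this (hX ▸ Subgroup.mem_top a)

/-- Conjugation gives `G → MulAut S ≃ MulAut SL(2,F) → MulAut PSL(2,F)` (the centre is characteristic); call it `α`. `ker α = C_G(S)`: if `g` acts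
trivially mod the centre, `s ↦ g s g⁻¹ s⁻¹` is a homomorphism from the perfect `S` (`|F| ≥ 4`) to `Z(S)`. `π₀` from `KSG.exists_projL2`,
`π = π₀ ∘ α`. Inner automorphisms of `PSL` lie in `(iotaL _ _).range = π₀.ker`. `α (ker π) ≤ π₀.ker`, of order
`|PGL₂(F)| = q (q² - 1) = |SL(2,F)|` (`KSG.card_range_iotaL`). -/
theorem oe_aut (S : Subgroup G) [S.Normal] {F : Type} [Field F] [Fintype F] (h4 : 4 ≤ Fintype.card F)
    (e : S ≃* SL(2, F)) : ∃ π : G →* RingAut F, S ≤ π.ker ∧
      Nat.card π.ker ∣ Nat.card (Subgroup.centralizer (S : Set G)) * Nat.card S := by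
  classical
  obtain ⟨π₀, -, -, hπ⟩ := KSG.exists_projL2 (F := F)
  let γ : G →* MulAut SL(2, F) := (MulAut.congr e).toMonoidHom.comp MulAut.conjNormal
  have hγ : ∀ g (s : S), γ g (e s) = e (MulAut.conjNormal g s) := fun g s => by
    simp [γ, MulAut.congr]
  let α : G →* MulAut (ProjectiveSpecialLinearGroup (Fin 2) F) := KSG.quotCenterAut.comp γ
  have hk : α.ker ≤ Subgroup.centralizer (S : Set G) := fun g hg s hs => by
    have h1 : γ g = 1 := oe_inj (Class.Dickson.SL2_commutator_eq_top
      (by rwa [Nat.card_eq_fintype_card])) hg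
    have h2 := hγ g ⟨s, hs⟩
    rw [h1, MulAut.one_apply] at h2
    have h3 : s = g * s * g⁻¹ := congrArg Subtype.val (e.injective h2)
    exact eq_mul_inv_iff_mul_eq.1 h3
  refine ⟨π₀.comp α, fun s hs => ?_, ?_⟩
  · change α s ∈ π₀.ker
    rw [hπ]
    refine KSG.inn_le_range_iotaL ⟨QuotientGroup.mk (e ⟨s, hs⟩), ?_⟩
    ext x
    induction x using QuotientGroup.induction_on with
    | H x =>
      obtain ⟨y, rfl⟩ := e.surjective x
      change _ = KSG.quotCenterAut (γ s) (QuotientGroup.mk (e y))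
      rw [KSG.quotCenterAut_mk, hγ, MulAut.conj_apply, ← QuotientGroup.mk_inv,
        ← QuotientGroup.mk_mul, ← QuotientGroup.mk_mul, ← map_inv, ← map_mul, ← map_mul]
      rfl
  · let β := α.comp (π₀.comp α).ker.subtype
    rw [← Subgroup.card_mul_index β.ker, Subgroup.index_ker]
    refine mul_dvd_mul ?_ ?_
    · rw [← Subgroup.card_map_of_injective (π₀.comp α).ker.subtype_injective]
      refine Subgroup.card_dvd_of_le ?_
      rintro _ ⟨g, hg, rfl⟩
      exact hk hg
    · have h1 : β.range ≤ (KSG.iotaL (Fin 2) F).range := by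
        rintro _ ⟨g, rfl⟩
        rw [← hπ]
        exact g.2
      refine (Subgroup.card_dvd_of_le h1).trans (dvd_of_eq ?_)
      rw [KSG.card_range_iotaL (by simp), Nat.card_congr e.toEquiv]
      exact Nat.eq_of_mul_eq_mul_left (Nat.card_pos (α := Fˣ))
        (Class.card_units_mul_card_PGL.trans Class.card_units_mul_card_SL.symm)

/-- prime fields have no automorphisms (`KSG.card_ringAut` with `f = 1`) -/
theorem oe_prime (S : Subgroup G) [S.Normal] {F : Type} [Field F] [Fintype F] (h4 : 4 ≤ Fintype.card F)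
    (hq : (Fintype.card F).Prime) (e : S ≃* SL(2, F)) :
    Nat.card G ∣ Nat.card (Subgroup.centralizer (S : Set G)) * Nat.card S := by
  obtain ⟨π, -, h⟩ := oe_aut S h4 e
  have := Fact.mk hq
  have h1 := (KSG.card_ringAut F (p := Fintype.card F) (f := 1) (pow_one _).symm).1
  have : Subsingleton (RingAut F) := (Nat.card_eq_one_iff_unique.1 h1).1
  have h2 : π.ker = ⊤ := eq_top_iff.2 fun g _ => Subsingleton.elim _ _
  rwa [h2, Subgroup.card_top] at h

theorem oe_card (F : Type) [Field F] [Fintype F] :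
    Nat.card SL(2, F) = Fintype.card F * (Fintype.card F ^ 2 - 1) := Class.card_SL2

/-- the centre is `{1, -1}` -/
theorem oe_center (F : Type) [Field F] [Fintype F] :
    Nat.card (Subgroup.center SL(2, F)) = if Odd (Fintype.card F) then 2 else 1 := by
  rw [Class.card_center_SL, Fintype.card_fin, Nat.card_eq_fintype_card]
  have h0 : 0 < Fintype.card F := Fintype.card_pos
  split_ifs with h
  · obtain ⟨k, hk⟩ := h
    exact Nat.gcd_eq_left ⟨k, by omega⟩
  · obtain ⟨k, hk⟩ := Nat.not_odd_iff_even.1 h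
    exact Nat.coprime_two_left.2 ⟨k - 1, by omega⟩

/-- fields of the same prime order are isomorphic (`FiniteField.ringEquivOfCardEq`, `SpecialLinearGroup.map`) -/
theorem oe_zmod {F : Type} [Field F] [Fintype F] {r : ℕ} [Fact r.Prime] (hF : Fintype.card F = r) :
    Nonempty (SL(2, F) ≃* SL(2, ZMod r)) := by
  have e : F ≃+* ZMod r := FiniteField.ringEquivOfCardEq (by rw [hF, ZMod.card])
  refine ⟨MonoidHom.toMulEquiv (SpecialLinearGroup.map (e : F →+* ZMod r))
    (SpecialLinearGroup.map (e.symm : ZMod r →+* F)) ?_ ?_⟩ <;>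
  · ext x i j
    simp

end Cfsg.Agent.Gag
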