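import Cfsg.Agent.Gag.Def
import Cfsg.Agent.S2430
import Cfsg.Agent.Class.SL2Sylow

set_option autoImplicit false
set_option linter.unusedSectionVars false
open Matrix MatrixGroups

namespace Cfsg.Agent.Gag

universe u v
variable {p : ℕ} {G : Type u} {V : Type v} [Group G] [Finite G] [AddCommGroup V] [Finite V] [DistribMulAction G V]

theorem psyl_gen {X : Type*} [Group X] [Finite X] [Fact p.Prime] (Q : Sylow p X) :
    Nat.card (Q : Subgroup X) * (Q : Subgroup X).relIndex (Subgroup.normalizer ((Q : Subgroup X) : Set X)) =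
      Nat.card (Subgroup.normalizer ((Q : Subgroup X) : Set X)) ∧
    Nat.card (Subgroup.normalizer ((Q : Subgroup X) : Set X)) * Nat.card (Sylow p X) = Nat.card X ∧
    ¬ p ∣ (Q : Subgroup X).relIndex (Subgroup.normalizer ((Q : Subgroup X) : Set X)) := by
  refine ⟨?_, ?_, fun h => Q.not_dvd_index (h.trans (Subgroup.relIndex_dvd_index_of_le Subgroup.le_normalizer))⟩
  · have h := ((Q : Subgroup X).subgroupOf (Subgroup.normalizer ((Q : Subgroup X) : Set X))).card_mul_index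
    rwa [Nat.card_congr (Subgroup.subgroupOfEquivOfLe Subgroup.le_normalizer).toEquiv] at h
  · rw [Q.card_eq_index_normalizer]
    exact Subgroup.card_mul_index _

theorem psyl_ar {m c d : ℕ} (hp : p.Prime) (h2 : p ≠ 2) (hd : p ∣ d) (h : p ^ c * m = 2 * d) (hm : ¬ p ∣ m) :
    ∃ e, 0 < c ∧ d = p ^ c * e ∧ ¬ p ∣ e ∧ m = 2 * e := by
  have hc : Nat.Coprime 2 (p ^ c) := ((Nat.coprime_primes Nat.prime_two hp).2 h2.symm).pow_right c
  obtain ⟨e, rfl⟩ : 2 ∣ m := hc.dvd_of_dvd_mul_left ⟨d, h⟩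
  have e1 : d = p ^ c * e := by
    have : 2 * d = 2 * (p ^ c * e) := by rw [← h]; ring
    omega
  have he : ¬ p ∣ e := fun k => hm (k.mul_left 2)
  refine ⟨e, Nat.pos_of_ne_zero fun c0 => he ?_, e1, he, rfl⟩
  rwa [e1, c0, pow_zero, one_mul] at hd

/-- defining characteristic (any `p`): the upper unitriangular group is Sylow, its normaliser is the Borel subgroup
(stabiliser of a line; `SL₂` is transitive on the `q + 1` lines, `|SL₂(q)| = q (q² - 1)`); all Sylows are conjugate.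
Look in the library first (`ca find 'Sylow p SL'`, PLocal/NatSL2, PLocal/SL2Nat, Class/SL2*). -/
theorem psyl_char {F : Type*} [Field F] [Fintype F] [Fact p.Prime] {a : ℕ} (hF : Fintype.card F = p ^ a)
    (Q : Sylow p SL(2, F)) : Nat.card (Sylow p SL(2, F)) = Fintype.card F + 1 ∧
      (Q : Subgroup SL(2, F)).relIndex (Subgroup.normalizer ((Q : Subgroup SL(2, F)) : Set SL(2, F))) =
        Fintype.card F - 1 := by
  have : CharP F p := charP_of_card_eq_prime_pow hF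
  refine ⟨Class.card_sylows_SL2 p, ?_⟩
  obtain ⟨h1, h2, -⟩ := psyl_gen Q
  rw [← h1, Class.card_sylows_SL2 p, Class.card_sylow_SL2 p Q, Class.card_SL2] at h2
  obtain ⟨r, hr⟩ : ∃ r, Fintype.card F = r + 1 := ⟨Fintype.card F - 1, by have := @Fintype.card_pos F _ _; omega⟩
  rw [hr] at h2 ⊢
  have e : (r + 1) ^ 2 - 1 = r * (r + 1 + 1) := by
    have : (r + 1) ^ 2 = r * (r + 1 + 1) + 1 := by ring
    omega
  rw [e, mul_assoc] at h2
  exact Nat.eq_of_mul_eq_mul_right (by omega) (Nat.eq_of_mul_eq_mul_left (by omega) h2)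

/-- `S2430`: `|N(Q)| = 2 (r - 1)`, `|SL₂| = r (r - 1) (r + 1)`, `n_p = |SL₂ : N(Q)|` (`Sylow.card_eq_index_normalizer`);
`|Q| = p ^ c`, `c > 0`, `|N(Q) : Q| = 2 e` is prime to `p`. -/
theorem psyl_minus {F : Type*} [Field F] [Fintype F] [Fact p.Prime] (h2 : p ≠ 2) (ho : Odd (Fintype.card F))
    (hd : p ∣ Fintype.card F - 1) (Q : Sylow p SL(2, F)) : ∃ c e, 0 < c ∧ Fintype.card F = p ^ c * e + 1 ∧ ¬ p ∣ e ∧
      2 * Nat.card (Sylow p SL(2, F)) = Fintype.card F * (Fintype.card F + 1) ∧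
      (Q : Subgroup SL(2, F)).relIndex (Subgroup.normalizer ((Q : Subgroup SL(2, F)) : Set SL(2, F))) = 2 * e := by
  obtain ⟨h1, h3, h4⟩ := psyl_gen Q
  obtain ⟨c, hc⟩ := IsPGroup.iff_card.1 Q.isPGroup'
  have hN := ((S2430.result ho p h2 Q).1 hd).2.2
  rw [hN] at h1 h3
  rw [hc] at h1
  obtain ⟨e, c0, e1, e2, e3⟩ := psyl_ar Fact.out h2 hd h1 h4
  have := @Fintype.one_lt_card F _ _
  refine ⟨c, e, c0, by omega, e2, ?_, e3⟩
  rw [Class.card_SL2] at h3
  obtain ⟨r, hr⟩ : ∃ r, Fintype.card F = r + 1 + 1 := ⟨Fintype.card F - 2, by omega⟩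
  rw [hr] at h3 ⊢
  have e : (r + 1 + 1) ^ 2 - 1 = (r + 1) * (r + 1 + 1 + 1) := by
    have : (r + 1 + 1) ^ 2 = (r + 1) * (r + 1 + 1 + 1) + 1 := by ring
    omega
  rw [e, Nat.add_sub_cancel] at h3
  refine Nat.eq_of_mul_eq_mul_left (by omega : 0 < r + 1) ?_
  linarith

theorem psyl_plus {F : Type*} [Field F] [Fintype F] [Fact p.Prime] (h2 : p ≠ 2) (ho : Odd (Fintype.card F))
    (hd : p ∣ Fintype.card F + 1) (Q : Sylow p SL(2, F)) : ∃ c e, 0 < c ∧ Fintype.card F + 1 = p ^ c * e ∧ ¬ p ∣ e ∧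
      2 * Nat.card (Sylow p SL(2, F)) = Fintype.card F * (Fintype.card F - 1) ∧
      (Q : Subgroup SL(2, F)).relIndex (Subgroup.normalizer ((Q : Subgroup SL(2, F)) : Set SL(2, F))) = 2 * e := by
  obtain ⟨h1, h3, h4⟩ := psyl_gen Q
  obtain ⟨c, hc⟩ := IsPGroup.iff_card.1 Q.isPGroup'
  have hN := ((S2430.result ho p h2 Q).2 hd).2.2
  rw [hN] at h1 h3
  rw [hc] at h1
  obtain ⟨e, c0, e1, e2, e3⟩ := psyl_ar Fact.out h2 hd h1 h4
  have := @Fintype.one_lt_card F _ _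
  refine ⟨c, e, c0, e1, e2, ?_, e3⟩
  rw [Class.card_SL2] at h3
  obtain ⟨r, hr⟩ : ∃ r, Fintype.card F = r + 1 + 1 := ⟨Fintype.card F - 2, by omega⟩
  rw [hr] at h3 ⊢
  have e : (r + 1 + 1) ^ 2 - 1 = (r + 1) * (r + 1 + 1 + 1) := by
    have : (r + 1 + 1) ^ 2 = (r + 1) * (r + 1 + 1 + 1) + 1 := by ring
    omega
  rw [e] at h3
  rw [Nat.add_sub_cancel]
  refine Nat.eq_of_mul_eq_mul_left (by omega : 0 < r + 1 + 1 + 1) ?_
  linarith

end Cfsg.Agent.Gag
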