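import Cfsg.Agent.Gag.Def
import Cfsg.Agent.Gag.OE
import Cfsg.Agent.Gag.PSyl

set_option autoImplicit false
set_option linter.unusedSectionVars false
open Matrix MatrixGroups Cfsg.Agent.Perm.Fpf Cfsg.Agent.PLocal

namespace Cfsg.Agent.Gag

universe u v
variable {p : ℕ} {G : Type u} {V : Type v} [Group G] [Finite G] [AddCommGroup V] [Finite V] [DistribMulAction G V]

/-- the upper unitriangular group is Sylow, its normaliser is the Borel subgroup of order `q (q - 1)` (library: `ca find 'Sylow.*SL'`,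
Class/Dickson*, PLocal/SL2Nat) -/
theorem of_def {F : Type} [Field F] [Fintype F] [Fact p.Prime] {a : ℕ} (hF : Fintype.card F = p ^ a) :
    Nat.card (Sylow p SL(2, F)) = Fintype.card F + 1 :=
  (psyl_char hF (Classical.arbitrary _)).1

/-- `q` odd, `p` an odd prime, `p ∤ q`, `p ∣ q² - 1`. A Sylow `p`-subgroup `P ≠ 1` lies in a cyclic torus `T` of order `q - 1` (if `p ∣ q - 1`;
diagonal matrices) or `q + 1` (norm one elements of `F_{q²}`); `C(x) = T` for `1 ≠ x ∈ P` (distinct eigenvalues as `x² ≠ 1`), `N(P) = N(T)` has order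
`2 |T|`; so there are `q (q² - 1) / (2 (q ∓ 1))` Sylow subgroups (library: Class/Dickson* has these normalisers for `PSL(2, F)`;
the numbers of Sylow `p`-subgroups agree for a central extension). Split into helper files `Gag/OFa`, ... freely. -/
theorem of_cross {F : Type} [Field F] [Fintype F] [Fact p.Prime] (hF : Odd (Fintype.card F)) (hp : p ≠ 2)
    (h1 : ¬ p ∣ Fintype.card F) (h2 : p ∣ Nat.card SL(2, F)) :
    (p ∣ Fintype.card F - 1 ∧ 2 * Nat.card (Sylow p SL(2, F)) = Fintype.card F * (Fintype.card F + 1)) ∨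
      (p ∣ Fintype.card F + 1 ∧ 2 * Nat.card (Sylow p SL(2, F)) = Fintype.card F * (Fintype.card F - 1)) := by
  rw [Class.card_SL2, ← one_pow 2, Nat.sq_sub_sq] at h2
  rcases (Nat.Prime.dvd_mul Fact.out).1 (((Nat.Prime.dvd_mul Fact.out).1 h2).resolve_left h1) with h | h
  · obtain ⟨c, e, -, -, -, k, -⟩ := psyl_plus hp hF h (Classical.arbitrary _)
    exact Or.inr ⟨h, k⟩
  · obtain ⟨c, e, -, -, -, k, -⟩ := psyl_minus hp hF h (Classical.arbitrary _)
    exact Or.inl ⟨h, k⟩

end Cfsg.Agent.Gag
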