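import Cfsg.Agent.Gag.Def

set_option autoImplicit false
set_option linter.unusedSectionVars false
open Matrix MatrixGroups Cfsg.Agent.Perm.Fpf Cfsg.Agent.PLocal

namespace Cfsg.Agent.Gag

universe u v
variable {p : ℕ} {G : Type u} {V : Type v} [Group G] [Finite G] [AddCommGroup V] [Finite V] [DistribMulAction G V]

/-- `p^n = p^a p^b + p^b - p^a`. `b < a`: divide by `p^b`: `p^(n-b) ≡ 1 (mod p)` but `n > b`. `b > a`: divide by `p^a`:
`p^(n-a) ≡ -1 (mod p)` but `n > a`. -/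
theorem og_def {a b n : ℕ} (hp : p.Prime) (ha : 0 < a) (hb : 0 < b)
    (h : p ^ n - 1 = (p ^ a + 1) * (p ^ b - 1)) : n = 2 * a := by
  have p2 := hp.two_le
  have b1 : 1 < p ^ b := Nat.one_lt_pow hb.ne' p2
  have a1 : 1 < p ^ a := Nat.one_lt_pow ha.ne' p2
  have n1 : 0 < p ^ n := by positivity
  have e : p ^ n + p ^ a = p ^ a * p ^ b + p ^ b := by
    zify [b1.le, (show 1 ≤ p ^ n from n1)] at h ⊢
    linear_combination h
  have la : a < n := (Nat.pow_lt_pow_iff_right p2).1 (by nlinarith)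
  have lb : b < n := (Nat.pow_lt_pow_iff_right p2).1 (by nlinarith)
  have nd : ∀ c x y : ℕ, p ^ (c + 1) ∣ x → p ^ (c + 1) ∣ y → x ≠ y + p ^ c := fun c x y h1 h2 h3 => by
    have := Nat.le_of_dvd (by positivity) ((Nat.dvd_add_right h2).1 (h3 ▸ h1))
    exact absurd (Nat.pow_lt_pow_right p2 c.lt_succ_self) (not_lt.2 this)
  rcases lt_trichotomy a b with r | rfl | r
  · exact absurd e.symm (nd a _ _ (dvd_add ((pow_dvd_pow p r).mul_left _) (pow_dvd_pow p r))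
      (pow_dvd_pow p la))
  · refine Nat.pow_right_injective p2 ?_
    dsimp only
    rw [two_mul, pow_add]
    omega
  · exact absurd e (nd b _ _ (dvd_add (pow_dvd_pow p lb) (pow_dvd_pow p r))
      ((pow_dvd_pow p r).mul_right _))

/-- `p^b - 1 ∣ p^n - 1` gives `b ∣ n` (`n = d b`), `s = 1 + x + ⋯ + x^(d-1)`, `x = p^b`; `s ≠ 1` gives `d ≥ 2` -/
theorem og_geom {b n s : ℕ} (hp : p.Prime) (hb : 0 < b) (hn : 0 < n) (hs : s ≠ 1)
    (h : p ^ n - 1 = s * (p ^ b - 1)) :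
    ∃ d, n = (d + 2) * b ∧ s = ∑ i ∈ Finset.range (d + 2), (p ^ b) ^ i := by
  have p2 := hp.two_le
  have b1 : 1 < p ^ b := Nat.one_lt_pow hb.ne' p2
  have h1 : p ^ Nat.gcd b n - 1 = p ^ b - 1 := by
    rw [← Nat.pow_sub_one_gcd_pow_sub_one]
    exact Nat.gcd_eq_left (Dvd.intro_left s h.symm)
  have h2 : Nat.gcd b n = b := Nat.pow_right_injective p2 (by
    have : 0 < p ^ Nat.gcd b n := by positivity
    dsimp only
    omega)
  obtain ⟨d, rfl⟩ := Nat.gcd_eq_left_iff_dvd.1 h2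
  have h3 : s = ∑ i ∈ Finset.range d, (p ^ b) ^ i := by
    refine Nat.eq_of_mul_eq_mul_right (by omega : 0 < p ^ b - 1) ?_
    rw [← h, pow_mul, geom_sum_mul_of_one_le b1.le]
  obtain rfl | rfl | ⟨d, rfl⟩ : d = 0 ∨ d = 1 ∨ ∃ c, d = c + 2 := by
    rcases d with _ | _ | d
    exacts [.inl rfl, .inr (.inl rfl), .inr (.inr ⟨d, rfl⟩)]
  · simp at hn
  · simp [hs] at h3
  · exact ⟨d, mul_comm _ _, h3⟩

/-- `s ≥ x + 1`, `s (x - 1) = p^n - 1`, so `s² > p^n` -/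
theorem og_sq {b n s : ℕ} (hp : p.Prime) (hb : 0 < b) (hn : 0 < n) (hs : s ≠ 1)
    (h : p ^ n - 1 = s * (p ^ b - 1)) : p ^ n < s ^ 2 := by
  obtain ⟨d, -, h1⟩ := og_geom hp hb hn hs h
  have b1 : 1 < p ^ b := Nat.one_lt_pow hb.ne' hp.two_le
  have n1 : 0 < p ^ n := pow_pos hp.pos n
  have h2 : p ^ b + 1 ≤ s := by
    rw [h1, Finset.sum_range_succ', Finset.sum_range_succ']
    simp
  obtain ⟨x, hx⟩ : ∃ x, p ^ b = x + 1 := ⟨p ^ b - 1, by omega⟩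
  rw [hx, Nat.add_sub_cancel] at h
  have h3 : p ^ n = s * x + 1 := by omega
  rw [h3]
  nlinarith

/-- `7, 5 ∣ 3^n - 1` give `6 ∣ n`, `4 ∣ n`, so `n ≥ 12`; `og_sq`: `s² > 3^12 > 560²` -/
theorem og_a7 {b n s : ℕ} (hb : 0 < b) (hn : 0 < n) (hs : s ≠ 1) (h : 3 ^ n - 1 = s * (3 ^ b - 1))
    (h1 : 560 ∣ 3 ^ n - 1) (h2 : s ≤ 560) : False := by
  have h3 := og_sq Nat.prime_three hb hn hs h
  have h4 : n < 12 := (Nat.pow_lt_pow_iff_right (by norm_num : 1 < 3)).1 (by nlinarith)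
  interval_cases n <;> norm_num at h1

end Cfsg.Agent.Gag
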