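import Cfsg.Agent.Gag.Def

set_option autoImplicit false
set_option linter.unusedSectionVars false
open Matrix MatrixGroups

namespace Cfsg.Agent.Gag

universe u v
variable {p : ℕ} {G : Type u} {V : Type v} [Group G] [Finite G] [AddCommGroup V] [Finite V] [DistribMulAction G V]

/-- `x = p ^ b`. From `x - 1 ∣ p ^ n - 1` get `b ∣ n` (write `n = b d + r`, `p ^ n ≡ p ^ r` mod `x - 1`, `p ^ r - 1 < x - 1`;
or `Nat.pow_sub_one_dvd_pow_sub_one`/gcd lemma), so `s = 1 + x + ... + x ^ (d - 1)` (`Nat.geomSum_eq`), `d ≥ 2` as `s ≠ 1`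
(`d = 0` gives `s = 0`), `t = 1 + x + ... + x ^ (d - 2)`. -/
theorem par0 {p n b s : ℕ} (hp : 1 < p) (hb : 0 < b) (hn : 0 < n) (h : p ^ n - 1 = s * (p ^ b - 1)) (hs : s ≠ 1) :
    ∃ t t' : ℕ, s = 1 + p ^ b * t ∧ t = 1 + p ^ b * t' := by
  have hx : 1 < p ^ b := Nat.one_lt_pow hb.ne' hp
  have hd : b ∣ n := by
    have h1 : p ^ b - 1 ∣ p ^ n - 1 := ⟨s, by rw [h, mul_comm]⟩
    have h2 := Nat.pow_sub_one_gcd_pow_sub_one p b n
    rw [Nat.gcd_eq_left h1] at h2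
    have h3 : 0 < p ^ b.gcd n := by positivity
    have h4 : p ^ b = p ^ b.gcd n := by omega
    rw [Nat.pow_right_injective hp h4]
    exact Nat.gcd_dvd_right b n
  obtain ⟨d, rfl⟩ := hd
  rw [pow_mul] at h
  generalize p ^ b = x at h hx ⊢
  have key : ∀ e : ℕ, ∃ u u' : ℕ, x ^ (e + 1) = u * (x - 1) + 1 ∧ u = 1 + x * u' ∧
      x ^ e = u' * (x - 1) + 1 := by
    obtain ⟨y, rfl⟩ : ∃ y, x = y + 1 := ⟨x - 1, by omega⟩
    intro e
    induction e with
    | zero => exact ⟨1, 0, by simp, by simp, by simp⟩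
    | succ e ih =>
      obtain ⟨u, u', h1, -, -⟩ := ih
      refine ⟨1 + (y + 1) * u, u, ?_, rfl, h1⟩
      rw [pow_succ, h1, Nat.add_sub_cancel]; ring
  have uq : ∀ a c : ℕ, a * (x - 1) + 1 = c * (x - 1) + 1 → a = c := fun a c e =>
    Nat.eq_of_mul_eq_mul_right (show 0 < x - 1 by omega) (by omega)
  have hs' : x ^ d = s * (x - 1) + 1 := by
    have : 0 < x ^ d := by positivity
    omega
  match d, hn, hs' with
  | 0, hn, _ => simp at hn
  | 1, _, hs' =>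
    exact absurd (uq s 1 (by rw [← hs', pow_one]; omega)) hs
  | e + 2, _, hs' =>
    obtain ⟨u, u', h1, h2, h3⟩ := key (e + 1)
    obtain ⟨w, w', h4, h5, -⟩ := key e
    have e1 := uq _ _ (hs'.symm.trans h1)
    have e2 := uq _ _ (h3.symm.trans h4)
    exact ⟨u', w', e1.trans h2, e2.trans h5⟩

/-- defining characteristic: `p ^ b * t = p ^ a` with `t ≡ 1` mod `p` forces `t = 1`. -/
theorem par_char {p a b t t' : ℕ} (hp : p.Prime) (hb : 0 < b) (h : p ^ a + 1 = 1 + p ^ b * t)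
    (ht : t = 1 + p ^ b * t') : p ^ b = p ^ a := by
  have h1 : p ^ a = p ^ b * t := by omega
  obtain ⟨j, -, hj⟩ := (Nat.dvd_prime_pow hp).1 (⟨p ^ b, by rw [h1, mul_comm]⟩ : t ∣ p ^ a)
  rcases Nat.eq_zero_or_pos j with rfl | h0
  · rw [h1, hj, pow_zero, mul_one]
  · exfalso
    have h2 : p ∣ t := hj ▸ dvd_pow_self p h0.ne'
    rw [ht] at h2
    exact hp.one_lt.ne' (Nat.dvd_one.1
      ((Nat.dvd_add_left ((dvd_pow_self p hb.ne').mul_right t')).1 h2))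

/-- `|2.A₇| = 5040`. `p ∈ {3, 5, 7}`, `s c = 560, 1008, 720`; `x = p ^ b ≤ s`, so finitely many `(s, c, b)`; `t ≡ 1` mod `x`,
`c ∣ x - 1` leave nothing (e.g. `p = 7, s = 120, c = 6`: `t = 17`; `p = 5, s = 126`: `c = 8 ∤ 124`). Bound `b`, then
`s ∈ Nat.divisors _`, `decide`/`interval_cases`/`omega`. -/
theorem par_a7 {p k b s c t t' : ℕ} (hp : p.Prime) (h2 : p ≠ 2) (hk : 0 < k) (hb : 0 < b)
    (h : s * (c * p ^ k) = 5040) (hc : c ∣ p ^ b - 1) (hs : s = 1 + p ^ b * t) (ht : t = 1 + p ^ b * t') : False := by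
  have hpd : p ∣ 5040 := h ▸ ((dvd_pow_self p hk.ne').mul_left c).mul_left s
  have hp3 : p = 3 ∨ p = 5 ∨ p = 7 := by
    have h1 : p ∣ 2 ^ 4 * 3 ^ 2 * 5 * 7 := hpd
    rcases (hp.dvd_mul).1 h1 with h1 | h1
    · rcases (hp.dvd_mul).1 h1 with h1 | h1
      · rcases (hp.dvd_mul).1 h1 with h1 | h1
        · exact absurd ((Nat.prime_dvd_prime_iff_eq hp Nat.prime_two).1 (hp.dvd_of_dvd_pow h1)) h2
        · exact .inl ((Nat.prime_dvd_prime_iff_eq hp Nat.prime_three).1 (hp.dvd_of_dvd_pow h1))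
      · exact .inr (.inl ((Nat.prime_dvd_prime_iff_eq hp Nat.prime_five).1 h1))
    · exact .inr (.inr ((Nat.prime_dvd_prime_iff_eq hp (by norm_num)).1 h1))
  have h3 : 3 ≤ p := by omega
  have sd : s ∈ Nat.divisors 5040 := Nat.mem_divisors.2 ⟨⟨_, h.symm⟩, by norm_num⟩
  have sle : s ≤ 5040 := Nat.divisor_le sd
  have hb8 : b ∈ Finset.range 8 := by
    rw [Finset.mem_range]
    by_contra hh
    have h4 : 3 ^ 8 ≤ p ^ b := (Nat.pow_le_pow_left h3 8).trans (Nat.pow_le_pow_right (by omega) (by omega))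
    have h5 : p ^ b ≤ p ^ b * t := Nat.le_mul_of_pos_right _ (by omega)
    omega
  have hk3 : k ∈ Finset.range 8 := by
    rw [Finset.mem_range]
    by_contra hh
    have h4 : 3 ^ 8 ≤ p ^ k := (Nat.pow_le_pow_left h3 8).trans (Nat.pow_le_pow_right (by omega) (by omega))
    have h5 : p ^ k ≤ 5040 := Nat.le_of_dvd (by norm_num) (h ▸ (dvd_mul_left _ c).mul_left s)
    omega
  have hc' : c = 5040 / (s * p ^ k) := by
    have h0 : 0 < s * p ^ k := Nat.pos_of_ne_zero fun e => by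
      rw [show s * (c * p ^ k) = c * (s * p ^ k) by ring, e] at h; omega
    rw [← h, show s * (c * p ^ k) = c * (s * p ^ k) by ring, Nat.mul_div_cancel _ h0]
  have hm : s % (p ^ b * p ^ b) = (1 + p ^ b) % (p ^ b * p ^ b) := by
    rw [hs, ht, show 1 + p ^ b * (1 + p ^ b * t') = 1 + p ^ b + p ^ b * p ^ b * t' by ring,
      Nat.add_mul_mod_self_left]
  have key : ∀ p ∈ ({3, 5, 7} : Finset ℕ), ∀ s ∈ Nat.divisors 5040, ∀ b ∈ Finset.range 8,
      ∀ k ∈ Finset.range 8, 0 < b → 0 < k → s % (p ^ b * p ^ b) = (1 + p ^ b) % (p ^ b * p ^ b) →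
      s * (5040 / (s * p ^ k) * p ^ k) = 5040 → ¬ 5040 / (s * p ^ k) ∣ p ^ b - 1 := by
    decide +kernel
  exact key p (by simpa using hp3) s sd b hb8 k hk3 hb hk hm (hc' ▸ h) (hc' ▸ hc)

end Cfsg.Agent.Gag
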