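import Cfsg.Agent.Gag.Def

set_option autoImplicit false
set_option linter.unusedSectionVars false
open Matrix MatrixGroups

namespace Cfsg.Agent.Gag

universe u v
variable {p : ℕ} {G : Type u} {V : Type v} [Group G] [Finite G] [AddCommGroup V] [Finite V] [DistribMulAction G V]

theorem par1_val {p b c A B : ℕ} (hp : p.Prime) (h : p ^ b * A = p ^ c * B) (hA : ¬ p ∣ A)
    (hB : ¬ p ∣ B) : p ^ b = p ^ c ∧ A = B := by
  have e : p ^ b = p ^ c := Nat.dvd_antisymm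
    ((((Nat.Prime.coprime_iff_not_dvd hp).2 hB).pow_left b).dvd_of_dvd_mul_right ⟨A, h.symm⟩)
    ((((Nat.Prime.coprime_iff_not_dvd hp).2 hA).pow_left c).dvd_of_dvd_mul_right ⟨B, h⟩)
  rw [e] at h
  exact ⟨e, Nat.eq_of_mul_eq_mul_left (pow_pos hp.pos c) h⟩

theorem par1_a {x e t' : ℕ} (he : Even e) (e0 : 0 < e) (hd : 2 * e ∣ x - 1) (x1 : 1 < x)
    (h : 2 * (1 + x * t') = (x * e + 3) * e) : False := by
  have le := Nat.le_of_dvd (by omega) hd
  have d : x ∣ 3 * e - 2 := by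
    have h1 : 3 * e - 2 + x * (e * e) = x * (2 * t') := by
      have : 2 + x * (2 * t') = x * (e * e) + 3 * e := by linarith
      omega
    exact (Nat.dvd_add_left (dvd_mul_right x (e * e))).1 (h1 ▸ dvd_mul_right x _)
  obtain ⟨k, hk⟩ := d
  have k2 : k < 2 := by
    by_contra hk2
    have : x * 2 ≤ x * k := Nat.mul_le_mul_left x (by omega)
    omega
  have k1 : k = 1 := by
    rcases Nat.eq_zero_or_pos k with rfl | _
    · omega
    · omega
  subst k1
  obtain ⟨m, hm⟩ := hd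
  have m2 : m < 2 := by
    by_contra hm2
    have : 2 * e * 2 ≤ 2 * e * m := Nat.mul_le_mul_left _ (by omega)
    omega
  obtain ⟨f, rfl⟩ := he
  interval_cases m <;> omega

theorem par1_b {u e t' : ℕ} (he : Even e) (e0 : 0 < e) (hu : 3 ∣ u) (uo : Odd u)
    (hd : 2 * e ∣ 9 * u - 1) (h : 2 * (1 + 9 * u * t') = (u * e + 1) * e) : False := by
  have u0 : 0 < u := uo.pos
  have le := Nat.le_of_dvd (by omega) hd
  have e2 : 2 ≤ e := by obtain ⟨f, rfl⟩ := he; omega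
  have d : u ∣ e - 2 := by
    have h1 : e - 2 + u * (e * e) = u * (18 * t') := by
      have : 2 + u * (18 * t') = u * (e * e) + e := by linarith
      omega
    exact (Nat.dvd_add_left (dvd_mul_right u (e * e))).1 (h1 ▸ dvd_mul_right u _)
  obtain ⟨j, hj⟩ := d
  obtain rfl : e = 2 + u * j := by omega
  have h2 : 18 * t' = (2 + u * j) * (2 + u * j) + j :=
    Nat.eq_of_mul_eq_mul_left u0 (by linarith)
  have j5 : j < 5 := by
    by_contra hj5
    have : u * 5 ≤ u * j := Nat.mul_le_mul_left u (by omega)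
    omega
  obtain ⟨w, rfl⟩ := hu
  obtain ⟨f, hf⟩ := he
  obtain ⟨g, hg⟩ := uo
  have h3 : 18 * t' = 4 + 12 * (w * j) + 9 * (w * j * (w * j)) + j := by linarith
  have j2 : j = 2 := by
    interval_cases j <;> omega
  subst j2
  have d2 : 3 * w + 1 ∣ 10 := by
    have d1 : 3 * w + 1 ∣ 9 * (3 * w) - 1 := Dvd.dvd.trans ⟨4, by ring⟩ hd
    have h4 : 9 * (3 * w) - 1 + 10 = (3 * w + 1) * 9 := by omega
    exact (Nat.dvd_add_right d1).1 (h4 ▸ dvd_mul_right _ _)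
  have := Nat.le_of_dvd (by norm_num) d2
  have w3 : w ≤ 3 := by omega
  interval_cases w <;> omega

theorem par1_c {u e j t' : ℕ} (he : Even e) (hj : ¬ 3 ∣ j) (hu : e + 1 = u * j)
    (hd : 2 * e ∣ 9 * u - 1) (h : 2 * (1 + 9 * u * t') = j * e) : u = 1 ∧ e = 4 := by
  have u0 : 0 < u := Nat.pos_of_ne_zero fun e => by simp [e] at hu
  have le := Nat.le_of_dvd (by omega) hd
  have j6 : j < 6 := by
    by_contra hj6
    have : u * 6 ≤ u * j := Nat.mul_le_mul_left u (by omega)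
    omega
  obtain ⟨f, hf⟩ := he
  interval_cases j
  · omega
  · rcases Nat.eq_zero_or_pos t' with rfl | t0
    · obtain rfl : u = 3 := by omega
      obtain rfl : e = 2 := by omega
      omega
    · have : 9 * u * 1 ≤ 9 * u * t' := Nat.mul_le_mul_left _ t0
      omega
  all_goals omega

/-- `x = p ^ b`, `2 s = r (r + 1)`, so `2 x t = (r + 2) (r - 1)`, `p ∤ t`, `e` even (`r` odd, `p` odd), `2 e ≤ x - 1`.
`p ≠ 3`: `p ∤ r + 2`, so `x = p ^ c`, `2 t = (x e + 3) e`, `x ∣ 3 e - 2 < 2 x`, `x = 3 e - 2`, `2 e ∣ 3 e - 3`, `e ∣ 3`: absurd.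
`p = 3, c ≥ 2`: `u = 3 ^ (c - 1)`, `r + 2 = 3 (u e + 1)`, `x = 9 u`, `2 t = u e² + e ≡ 2` mod `9 u`; `e = 2 + u j`, `j ≤ 4` even,
`9 ∣ e² + j`, `e ≡ 2` mod 3 so `j = 2`, `4 (u + 1) ∣ 9 u - 1 = 9 (u + 1) - 10`, `u = 9` (`u = 3` fails), `e = 20`, `9 ∤ 402`.
`p = 3, c = 1`: `r + 2 = 3 (e + 1)`, `e + 1 = u j` with `u` a power of 3, `3 ∤ j`, `x = 9 u`, `2 t = j e`, `j` odd, `2 (u j - 1) ≤ 9 u - 1`.
`j = 5`: `u = 1`, `e = 4`, `r = 13`, `x = 9`. `j = 1`: `u - 1 ∣ 8`, `u = 3` (`4 ∤ 26`), `u = 9` (`t = 4 ≢ 1` mod 81). -/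
theorem par_minus {p r c e o b s t t' : ℕ} (hp : p.Prime) (h2 : p ≠ 2) (hr : Odd r) (h3 : 3 < r) (hc : 0 < c)
    (he : r = p ^ c * e + 1) (hpe : ¬ p ∣ e) (hb : 0 < b) (hd : o * (2 * e) ∣ p ^ b - 1) (hrs : 2 * s = r * (r + 1))
    (hs : s = 1 + p ^ b * t) (ht : t = 1 + p ^ b * t') : p = 3 ∧ r = 13 ∧ p ^ b = 9 ∧ o = 1 := by
  have x1 : 1 < p ^ b := Nat.one_lt_pow hb.ne' hp.one_lt
  have hd' : 2 * e ∣ p ^ b - 1 := (dvd_mul_left _ _).trans hd
  have po : Odd p := hp.odd_of_ne_two h2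
  have e0 : 0 < e := Nat.pos_of_ne_zero fun e0 => by rw [e0] at he; omega
  have ee : Even e := by
    have : Even (p ^ c * e) := by
      rw [he, Nat.odd_add_one, Nat.not_odd_iff_even] at hr
      exact hr
    exact (Nat.even_mul.1 this).resolve_left (Nat.not_even_iff_odd.2 po.pow)
  have pt : ¬ p ∣ 2 * t := fun h => by
    rcases (Nat.Prime.dvd_mul hp).1 h with h | h
    · exact h2 ((Nat.prime_dvd_prime_iff_eq hp Nat.prime_two).1 h)
    · rw [ht] at h
      exact hp.one_lt.ne' (Nat.dvd_one.1 ((Nat.dvd_add_left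
        ((dvd_pow_self p hb.ne').mul_right t')).1 h))
  have key : p ^ b * (2 * t) = p ^ c * ((p ^ c * e + 3) * e) := by
    rw [hs, he] at hrs
    linarith
  by_cases p3 : p = 3
  · subst p3
    obtain ⟨c, rfl⟩ : ∃ d, c = d + 1 := ⟨c - 1, by omega⟩
    rcases Nat.eq_zero_or_pos c with rfl | c0
    · obtain ⟨k, j, hj, e1⟩ := Nat.exists_eq_pow_mul_and_not_dvd (n := e + 1) (by omega) 3 (by norm_num)
      obtain ⟨a1, a2⟩ := par1_val (b := b) (c := k + 2) (A := 2 * t) (B := j * e) hp (by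
        rw [key]
        calc _ = 9 * e * (e + 1) := by ring
          _ = _ := by rw [e1]; ring) pt
        (fun h => ((Nat.Prime.dvd_mul hp).1 h).elim hj hpe)
      have a3 : 3 ^ b = 9 * 3 ^ k := by rw [a1]; ring
      rw [a3] at hd hd' ht ⊢
      obtain ⟨b1, rfl⟩ := par1_c ee hj e1 hd' (ht ▸ a2)
      rw [b1] at hd ⊢
      refine ⟨rfl, by omega, rfl, ?_⟩
      have := Nat.le_of_dvd (by norm_num) hd
      have : o ≠ 0 := fun e => by simp [e] at hd
      omega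
    · exfalso
      have u3 : 3 ∣ 3 ^ c := dvd_pow_self 3 c0.ne'
      obtain ⟨a1, a2⟩ := par1_val (b := b) (c := c + 2) (A := 2 * t) (B := (3 ^ c * e + 1) * e) hp (by
        rw [key]; ring) pt (fun h => ((Nat.Prime.dvd_mul hp).1 h).elim (fun h => by
          have := (Nat.dvd_add_right (u3.mul_right e)).1 h
          omega) hpe)
      have a3 : 3 ^ b = 9 * 3 ^ c := by rw [a1]; ring
      rw [a3] at hd' ht
      exact par1_b ee e0 u3 po.pow hd' (ht ▸ a2)
  · exfalso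
    obtain ⟨a1, a2⟩ := par1_val hp key pt fun h => ((Nat.Prime.dvd_mul hp).1 h).elim (fun h =>
      p3 ((Nat.prime_dvd_prime_iff_eq hp Nat.prime_three).1
        ((Nat.dvd_add_right ((dvd_pow_self p hc.ne').mul_right e)).1 h))) hpe
    rw [← a1] at a2
    exact par1_a ee e0 hd' x1 (ht ▸ a2)

end Cfsg.Agent.Gag
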