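import Cfsg.Agent.Gag.Def

set_option autoImplicit false
set_option linter.unusedSectionVars false
open Matrix MatrixGroups

namespace Cfsg.Agent.Gag

universe u v
variable {p : ℕ} {G : Type u} {V : Type v} [Group G] [Finite G] [AddCommGroup V] [Finite V] [DistribMulAction G V]

theorem par2_val {p b c A B : ℕ} (hp : p.Prime) (h : p ^ b * A = p ^ c * B) (hA : ¬ p ∣ A) (hB : ¬ p ∣ B) :
    p ^ b = p ^ c ∧ A = B := by
  have h1 : p ^ b ∣ p ^ c := (Nat.Coprime.pow_left b ((Nat.Prime.coprime_iff_not_dvd hp).2 hB)).dvd_of_dvd_mul_right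
    ⟨A, h.symm⟩
  have h2 : p ^ c ∣ p ^ b := (Nat.Coprime.pow_left c ((Nat.Prime.coprime_iff_not_dvd hp).2 hA)).dvd_of_dvd_mul_right
    ⟨B, h⟩
  have h3 := Nat.dvd_antisymm h1 h2
  rw [h3] at h
  exact ⟨h3, Nat.eq_of_mul_eq_mul_left (pow_pos hp.pos c) h⟩

/-- `x = p ^ b`, `2 s = r (r - 1)`, so `2 x t = (r - 2) (r + 1)`, `p ∤ t`, `e` even, `2 e ≤ x - 1`.
`p ≠ 3`: `x = p ^ c`, `2 t = (x e - 3) e`, `x ∣ 3 e + 2 < 2 x`, `x = 3 e + 2`, `2 e ∣ 3 e + 1`, `e ∣ 1`: absurd.
`p = 3, c ≥ 2`: `u = 3 ^ (c - 1)`, `x = 9 u`, `2 t = (u e - 1) e`, `u ∣ e + 2`, `e = u j - 2`, `j ∈ {2, 4}`; `j = 2`: `4 (u - 1) ∣ 9 u - 1`,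
`u - 1 ∣ 8`, `u = 3` (`8 ∤ 26`), `u = 9` (`32 ∤ 80`); `j = 4`: `8 u - 4 ∣ 9 u - 1 < 2 (8 u - 4)`, not equal.
`p = 3, c = 1`: `r - 2 = 3 (e - 1)`, `e - 1 = u j` (`e ≥ 2`), `u` a power of 3, `3 ∤ j`, `x = 9 u`, `2 t = j e`, `j` odd `≤ 4`, so `j = 1`,
`2 (u + 1) ∣ 9 u - 1 = 9 (u + 1) - 10`, `u = 1` (`r = 5`, `x = 9`, `4 o ∣ 8`, `o` odd) or `u = 9` (`t = 5 ≢ 1` mod 81). -/
theorem par_plus {p r c e o b s t t' : ℕ} (hp : p.Prime) (h2 : p ≠ 2) (hr : Odd r) (h3 : 3 < r) (hc : 0 < c)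
    (he : r + 1 = p ^ c * e) (hpe : ¬ p ∣ e) (hb : 0 < b) (ho : Odd o) (hd : o * (2 * e) ∣ p ^ b - 1)
    (hrs : 2 * s = r * (r - 1)) (hs : s = 1 + p ^ b * t) (ht : t = 1 + p ^ b * t') :
    p = 3 ∧ r = 5 ∧ p ^ b = 9 ∧ o = 1 := by
  obtain ⟨m, rfl⟩ : ∃ m, r = m + 2 := ⟨r - 2, by omega⟩
  have px : p ∣ p ^ b := dvd_pow_self p hb.ne'
  have py : p ∣ p ^ c := dvd_pow_self p hc.ne'
  have x1 : 1 < p ^ b := Nat.one_lt_pow hb.ne' hp.one_lt
  have key : p ^ b * (2 * t) = m * (m + 3) := by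
    rw [show m + 2 - 1 = m + 1 by omega, hs] at hrs
    nlinarith
  have pt : ¬ p ∣ 2 * t := fun k => by
    rcases (Nat.Prime.dvd_mul hp).1 k with k | k
    · exact h2 ((Nat.prime_dvd_prime_iff_eq hp Nat.prime_two).1 k)
    · rw [ht] at k
      exact hp.one_lt.ne' (Nat.dvd_one.1 ((Nat.dvd_add_left (px.mul_right t')).1 k))
  have ee : Even e := by
    have h4 : Even (p ^ c * e) := he ▸ hr.add_one
    exact (Nat.even_mul.1 h4).resolve_left (Nat.not_even_iff_odd.2 (hp.odd_of_ne_two h2).pow)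
  have e0 : 0 < e := Nat.pos_of_ne_zero fun k => hpe (k ▸ dvd_zero p)
  have hd2 : 2 * e ∣ p ^ b - 1 := (Dvd.intro_left o rfl).trans hd
  have hle : 2 * e ≤ p ^ b - 1 := Nat.le_of_dvd (by omega) hd2
  replace he : m + 3 = p ^ c * e := he
  obtain ⟨f, hf⟩ := ee
  by_cases p3 : p = 3
  swap
  · exfalso
    have pm : ¬ p ∣ m := fun k => p3 ((Nat.prime_dvd_prime_iff_eq hp Nat.prime_three).1
      ((Nat.dvd_add_right k).1 (he ▸ py.mul_right e)))
    obtain ⟨k1, k2⟩ := par2_val (c := c) (B := m * e) hp (by rw [key, he]; ring) pt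
      fun k => ((Nat.Prime.dvd_mul hp).1 k).elim pm hpe
    rw [← k1] at he
    generalize p ^ b = x at *
    have h5 : x ∣ 3 * e + 2 := by
      refine (Nat.dvd_add_right (dvd_mul_right x (2 * t'))).1 ⟨e * e, ?_⟩
      have : (m + 3) * e = x * e * e := by rw [he]
      nlinarith
    obtain ⟨j, hj⟩ := h5
    have j1 : j = 1 := by
      rcases j with _ | _ | j
      · omega
      · rfl
      · exfalso; nlinarith [Nat.zero_le (x * j), show 2 * e + 1 ≤ x by omega]
    rw [j1, mul_one] at hj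
    have h6 : e ∣ 3 * e + 1 := by
      have := (Dvd.intro_left 2 rfl).trans hd2
      rwa [show x - 1 = 3 * e + 1 by omega] at this
    have h7 := Nat.dvd_one.1 ((Nat.dvd_add_right (Dvd.intro_left 3 rfl)).1 h6)
    omega
  subst p3
  obtain ⟨c, rfl⟩ : ∃ d, c = d + 1 := ⟨c - 1, by omega⟩
  obtain ⟨n, rfl⟩ : ∃ n, m = 3 * n := (Nat.dvd_add_left (dvd_refl 3)).1 (he ▸ py.mul_right e)
  have hn : n + 1 = 3 ^ c * e := by rw [pow_succ] at he; nlinarith
  rcases Nat.eq_zero_or_pos c with rfl | c0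
  · rw [pow_zero, one_mul] at hn
    have n0 : n ≠ 0 := by omega
    obtain ⟨k, j, hj, e1⟩ := Nat.exists_eq_pow_mul_and_not_dvd n0 3 (by norm_num)
    obtain ⟨k1, k2⟩ := par2_val (c := k + 2) (B := j * e) hp (by rw [key, ← hn, e1]; ring) pt
      fun k => ((Nat.Prime.dvd_mul hp).1 k).elim hj hpe
    rw [pow_add] at k1
    have u0 : 0 < 3 ^ k := by positivity
    have uo : Odd (3 ^ k) := Odd.pow (by decide)
    have jo : Odd j := by
      have : Odd n := ⟨f - 1, by omega⟩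
      rw [e1] at this
      exact (Nat.odd_mul.1 this).2
    generalize 3 ^ k = u at *
    generalize 3 ^ b = x at *
    have j4 : j < 5 := by
      by_contra k
      have : u * 5 ≤ u * j := Nat.mul_le_mul_left u (by omega)
      omega
    have j1 : j = 1 := by
      obtain ⟨i, hi⟩ := jo
      omega
    subst j1
    have h5 : u + 1 ∣ 10 := by
      have h6 : u + 1 ∣ x - 1 := by
        have := (Dvd.intro_left 2 rfl).trans hd2
        rwa [show e = u + 1 by omega] at this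
      refine (Nat.dvd_add_right h6).1 ⟨9, by omega⟩
    have h7 : u + 1 ≤ 10 := Nat.le_of_dvd (by norm_num) h5
    obtain ⟨i, hi⟩ := uo
    have h8 : u = 1 ∨ u = 9 := by
      have : u < 10 := by omega
      interval_cases u <;> omega
    rcases h8 with rfl | rfl
    · have e2 : e = 2 := by omega
      have x9 : x = 9 := by omega
      subst e2 x9
      refine ⟨rfl, by omega, rfl, ?_⟩
      have h9 : o ≤ 2 := by have := Nat.le_of_dvd (by norm_num) hd; omega
      obtain ⟨i, hi⟩ := ho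
      omega
    · exfalso
      have x9 : x = 81 := by omega
      subst x9
      omega
  · exfalso
    have u3 : 3 ∣ 3 ^ c := dvd_pow_self 3 c0.ne'
    have pn : ¬ 3 ∣ n := fun k => by
      have := (Nat.dvd_add_right k).1 (hn ▸ u3.mul_right e)
      omega
    obtain ⟨k1, k2⟩ := par2_val (c := c + 2) (B := n * e) hp
      (by rw [key, show 3 * n + 3 = 3 * (n + 1) by ring, hn]; ring) pt
      fun k => ((Nat.Prime.dvd_mul hp).1 k).elim pn hpe
    rw [pow_add] at k1
    have u0 : 0 < 3 ^ c := by positivity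
    have uo : Odd (3 ^ c) := Odd.pow (by decide)
    clear he py
    generalize 3 ^ c = u at *
    generalize 3 ^ b = x at *
    have h5 : u ∣ e + 2 := by
      refine (Nat.dvd_add_right (dvd_mul_right u (18 * t'))).1 ⟨e * e, ?_⟩
      have : (n + 1) * e = u * e * e := by rw [hn]
      subst k1
      nlinarith
    obtain ⟨j, hj⟩ := h5
    have je : Even j := by
      have : Even (u * j) := ⟨f + 1, by omega⟩
      exact (Nat.even_mul.1 this).resolve_left (Nat.not_even_iff_odd.2 uo)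
    have j6 : j < 6 := by
      by_contra k
      have : u * 6 ≤ u * j := Nat.mul_le_mul_left u (by omega)
      omega
    obtain ⟨i, hi⟩ := je
    have h6 : j = 0 ∨ j = 2 ∨ j = 4 := by omega
    rcases h6 with rfl | rfl | rfl
    · omega
    · have h7 : u - 1 ∣ 8 := by
        have h8 : u - 1 ∣ x - 1 := (Dvd.intro 4 (by omega)).trans hd2
        rw [show x - 1 = (u - 1) * 9 + 8 by omega] at h8
        exact (Nat.dvd_add_right (dvd_mul_right _ 9)).1 h8
      have h9 : u - 1 ≤ 8 := Nat.le_of_dvd (by norm_num) h7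
      have h10 : u = 3 ∨ u = 6 ∨ u = 9 := by omega
      rcases h10 with rfl | rfl | rfl
      · rw [show e = 4 by omega, show x = 27 by omega] at hd2
        omega
      · omega
      · rw [show e = 16 by omega, show x = 81 by omega] at hd2
        omega
    · have h7 : 2 * e ∣ u + 3 := by
        rw [show x - 1 = 2 * e + (u + 3) by omega] at hd2
        exact (Nat.dvd_add_right (dvd_refl _)).1 hd2
      have := Nat.le_of_dvd (by omega) h7
      omega

end Cfsg.Agent.Gag
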