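import Cfsg.Agent.Gag.OG
import Cfsg.Agent.Gag.PAr0
import Cfsg.Agent.Gag.PAr1
import Cfsg.Agent.Gag.PAr2

set_option autoImplicit false
set_option linter.unusedSectionVars false
open Matrix MatrixGroups Cfsg.Agent.Perm.Fpf Cfsg.Agent.PLocal

namespace Cfsg.Agent.Gag

universe u v
variable {p : ℕ} {G : Type u} {V : Type v} [Group G] [Finite G] [AddCommGroup V] [Finite V] [DistribMulAction G V]

theorem og2_dvd {s x c u k m N : ℕ} (hp : p.Prime) (s0 : 0 < s) (h : p ^ k * (2 * s * m) = p ^ c * u)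
    (hs : ¬ p ∣ 2 * s) (hm : ¬ p ∣ m) (hu : ¬ p ∣ u) (h1 : u ∣ N) (h2 : N = s * x) : 1 * (2 * m) ∣ x := by
  obtain ⟨-, e⟩ := par1_val hp h (fun h => ((Nat.Prime.dvd_mul hp).1 h).elim hs hm) hu
  rw [h2, ← e, show 2 * s * m = s * (1 * (2 * m)) by ring] at h1
  exact Nat.dvd_of_mul_dvd_mul_left s0 h1

theorem og2_pow {n N : ℕ} (h : 3 ^ n - 1 = 3 ^ N - 1) : n = N := by
  have h1 : 0 < 3 ^ n := pow_pos (by norm_num) n
  have h2 : 0 < 3 ^ N := pow_pos (by norm_num) N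
  exact Nat.pow_right_injective (by norm_num : 2 ≤ 3) (show 3 ^ n = 3 ^ N by omega)

/-- `par0`, `par_minus`, `par_plus` -/
theorem og_cross {q s b n c u : ℕ} (hp : p.Prime) (hp2 : p ≠ 2) (hq : Odd q) (h3 : 3 < q) (hpq : ¬ p ∣ q)
    (hb : 0 < b) (hn : 0 < n) (hu : q * (q ^ 2 - 1) = p ^ c * u) (hpu : ¬ p ∣ u) (h1 : u ∣ p ^ n - 1)
    (h2 : p ^ n - 1 = s * (p ^ b - 1))
    (hs : (p ∣ q - 1 ∧ 2 * s = q * (q + 1)) ∨ (p ∣ q + 1 ∧ 2 * s = q * (q - 1))) :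
    p = 3 ∧ ((q = 5 ∧ n = 4) ∨ (q = 13 ∧ n = 6)) := by
  have p2 : ¬ p ∣ 2 := fun h => hp2 ((Nat.prime_dvd_prime_iff_eq hp Nat.prime_two).1 h)
  obtain ⟨w, rfl⟩ : ∃ w, q = w + 1 := ⟨q - 1, by omega⟩
  have e0 : (w + 1) ^ 2 - 1 = w * (w + 2) := by
    rw [show (w + 1) ^ 2 = w * (w + 2) + 1 by ring, Nat.add_sub_cancel]
  rw [e0] at hu
  rw [Nat.add_sub_cancel] at hs
  rcases hs with ⟨d, hs⟩ | ⟨d, hs⟩
  · have s1 : 1 < s := by nlinarith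
    obtain ⟨t, t', e1, e2⟩ := par0 hp.one_lt hb hn h2 s1.ne'
    obtain ⟨k, m, hm, e⟩ := Nat.exists_eq_pow_mul_and_not_dvd (n := w) (by omega) p hp.one_lt.ne'
    have k0 : 0 < k := Nat.pos_of_ne_zero fun k0 => hm (by rwa [e, k0, pow_zero, one_mul] at d)
    have hd := og2_dvd (k := k) hp (by omega) (by rw [← hu, hs, e]; ring) (by
      rw [hs]
      exact fun h => ((Nat.Prime.dvd_mul hp).1 h).elim hpq fun h =>
        p2 ((Nat.dvd_add_right d).1 h)) hm hpu h1 h2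
    obtain ⟨rfl, a1, a2, -⟩ := par_minus hp hp2 hq h3 k0 (by rw [e]) hm hb hd hs e1 e2
    refine ⟨rfl, Or.inr ⟨a1, og2_pow ?_⟩⟩
    rw [a1] at hs
    rw [h2, a2]
    omega
  · have s1 : 1 < s := by nlinarith
    obtain ⟨t, t', e1, e2⟩ := par0 hp.one_lt hb hn h2 s1.ne'
    obtain ⟨k, m, hm, e⟩ := Nat.exists_eq_pow_mul_and_not_dvd (n := w + 2) (by omega) p hp.one_lt.ne'
    have k0 : 0 < k := Nat.pos_of_ne_zero fun k0 => hm (by
      rw [k0, pow_zero, one_mul] at e; rw [← e]; exact d)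
    have hd := og2_dvd (k := k) hp (by omega) (by rw [← hu, hs, e]; ring) (by
      rw [hs]
      exact fun h => ((Nat.Prime.dvd_mul hp).1 h).elim hpq fun h =>
        p2 ((Nat.dvd_add_right h).1 d)) hm hpu h1 h2
    obtain ⟨rfl, a1, a2, -⟩ := par_plus hp hp2 hq h3 k0 e hm hb odd_one hd hs e1 e2
    refine ⟨rfl, Or.inl ⟨a1, og2_pow ?_⟩⟩
    obtain rfl : w = 4 := by omega
    rw [h2, a2]
    omega

end Cfsg.Agent.Gag
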