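import Cfsg.Agent.Gag.Bas2
import Cfsg.Agent.Gag.OA
import Cfsg.Agent.Gag.OG

set_option autoImplicit false
set_option linter.unusedSectionVars false
open Matrix MatrixGroups Cfsg.Agent.Perm.Fpf Cfsg.Agent.PLocal

namespace Cfsg.Agent.Gag

universe u v
variable {p : ℕ} {G : Type u} {V : Type v} [Group G] [Finite G] [AddCommGroup V] [Finite V] [DistribMulAction G V]

theorem oh_perm (σ : Equiv.Perm (Fin 7)) (h : σ ^ 9 = 1) : σ ^ 3 = 1 := by
  refine orderOf_dvd_iff_pow_eq_one.1 ?_
  rw [← Equiv.Perm.lcm_cycleType, Multiset.lcm_dvd]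
  intro n hn
  have h1 : n ∣ 9 := (Equiv.Perm.dvd_of_mem_cycleType hn).trans (orderOf_dvd_of_pow_eq_one h)
  have h2 : n ≤ 7 := (Equiv.Perm.le_card_support_of_mem_cycleType hn).trans
    ((Finset.card_le_univ _).trans (by simp))
  interval_cases n <;> omega

theorem oh_syl (hc : Nat.card G = 5040) (P : Sylow 3 G) : Nat.card (P : Subgroup G) = 9 := by
  have : Fact (Nat.Prime 3) := ⟨Nat.prime_three⟩
  rw [P.card_eq_multiplicity, hc]
  have : (5040 : ℕ).factorization 3 = 2 := by
    rw [show (5040 : ℕ) = 3 ^ 2 * 560 by norm_num, Nat.factorization_mul (by norm_num) (by norm_num),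
      Nat.Prime.factorization_pow Nat.prime_three, Finsupp.add_apply, Finsupp.single_eq_same,
      Nat.factorization_eq_zero_of_not_dvd (by norm_num)]
  rw [this]; norm_num

/-- `p ≠ 3`: a Sylow 3-subgroup of `G` is cyclic (`Sr.cyc`), its image is a Sylow 3-subgroup of `A₇`, of order 9, but `A₇` has no element of order 9
(`decide`-free: cycle type; or lift the commuting 3-cycles). `p = 3`: the index of a Sylow 3-subgroup is `560`; `card_V`, `Sy.index_dvd`, `Sy.points`,
`s = |Syl₃| ∣ 560`, `s ≠ 1` (a unique Sylow subgroup is normal, of order 9, against `hO`); `og_a7`. -/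
theorem oh (h : Sr p G V) (hs : Sy p G V) (hO : pCore p G = ⊥) (hp : p ≠ 2) (hc : Nat.card G = 5040)
    (f : G →* alternatingGroup (Fin 7)) (hf : Function.Surjective f) : False := by
  have : Fact (Nat.Prime 3) := ⟨Nat.prime_three⟩
  obtain ⟨P⟩ : Nonempty (Sylow 3 G) := inferInstance
  have hP := oh_syl hc P
  by_cases h3 : p = 3
  · subst h3
    have hi : (P : Subgroup G).index = 560 := by
      have := (P : Subgroup G).card_mul_index
      rw [hP, hc] at this
      omega
    obtain ⟨m, hm, hV⟩ := h.card_V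
    obtain ⟨b, hb, -, e⟩ := hs.points h P
    have h1 := hs.index_dvd h P
    rw [hV] at e h1
    rw [hi] at h1
    refine og_a7 hb hm (fun s1 => ?_) e h1 (hi ▸ Nat.le_of_dvd (by omega) P.card_dvd_index)
    have : Subsingleton (Sylow 3 G) := (Nat.card_eq_one_iff_unique.1 s1).1
    have : (P : Subgroup G).Normal := Sylow.normal_of_subsingleton P
    rw [eq_bot_of_normal_pgroup hO (P : Subgroup G) P.isPGroup', Subgroup.card_bot] at hP
    omega
  · have hcy : IsCyclic (P : Subgroup G) := h.cyc (q := 3) (Ne.symm h3) (by norm_num) P.isPGroup'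
    obtain ⟨g, hg⟩ := hcy.exists_ofOrder_eq_natCard
    rw [hP, ← Subgroup.orderOf_coe] at hg
    have hk : Nat.card f.ker = 2 := by
      have e1 := f.ker.card_mul_index
      rw [Subgroup.index_ker, MonoidHom.range_eq_top.2 hf, Subgroup.card_top, nat_card_alternatingGroup, hc] at e1
      rw [show (Nat.card (Fin 7)).factorial / 2 = 2520 by rw [Nat.card_fin]; decide] at e1
      omega
    have e9 : (g : G) ^ 9 = 1 := hg ▸ pow_orderOf_eq_one _
    have e3 : (g : G) ^ 3 ∈ f.ker := by
      rw [MonoidHom.mem_ker, map_pow]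
      refine Subtype.ext (oh_perm (f g) ?_)
      have := congrArg (fun x => ((f x : alternatingGroup (Fin 7)) : Equiv.Perm (Fin 7))) e9
      simpa only [map_pow, map_one, Subgroup.coe_pow, Subgroup.coe_one] using this
    have e2 := orderOf_dvd_iff_pow_eq_one.1 (Subgroup.orderOf_dvd_natCard f.ker e3)
    rw [hk, ← pow_mul] at e2
    have := orderOf_dvd_of_pow_eq_one e2
    rw [hg] at this
    omega

end Cfsg.Agent.Gag
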