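import Cfsg.Agent.Gag.Bas2
import Cfsg.Agent.Gag.OD
import Cfsg.Agent.Gag.OE
import Cfsg.Agent.Gag.OF
import Cfsg.Agent.Gag.OG
import Cfsg.Agent.FGS.SylowNumber

set_option autoImplicit false
set_option linter.unusedSectionVars false
open Matrix MatrixGroups Cfsg.Agent.Perm.Fpf Cfsg.Agent.PLocal

namespace Cfsg.Agent.Gag

universe u v
variable {p : ℕ} {G : Type u} {V : Type v} [Group G] [Finite G] [AddCommGroup V] [Finite V] [DistribMulAction G V]

/-- `q = p^a`, `a > 0`. For `S` (`h.sub S`, `Tr.sy`): `Sy.points`, `of_def` (transport Sylow counts along `e`), `card_V`, `og_def` give `|V| = q²`.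
`Tr.index_eq`: `|G| = p^j (q² - 1)`, `|S| = q (q² - 1)` (`oe_card`), so `S.index = p^k`. `od_cent` (`relIndex_dvd_index_of_normal`). `π` from `oe_aut`:
`|ker π| ∣ |Z(S)| |S|`, so `|ker π : S|` divides `|Z(S)|` (`oe_center`: 2 if `p` odd, 1 if `p = 2`) and `p^k`: `ker π = S`. `RingAut F` is cyclic
(`KSG.card_ringAut`), so is `π.range`; lift a generator. -/
theorem oi (h : Sr p G V) (ht : Tr G V) (hO : pCore p G = ⊥) (S : Subgroup G) [S.Normal]
    {F : Type} [Field F] [Fintype F] {a : ℕ} (hF : Fintype.card F = p ^ a) (h4 : 4 ≤ Fintype.card F)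
    (e : S ≃* SL(2, F)) : C1 p G := by
  haveI : Fact p.Prime := ⟨h.prime⟩
  have a0 : 0 < a := Nat.pos_of_ne_zero fun c => by rw [c, pow_zero] at hF; omega
  obtain ⟨b, b0, -, e1⟩ := Sy.points (h.sub S) (Tr.sy h ht S) default
  obtain ⟨m, -, e2⟩ := h.card_V
  rw [FGS.card_sylow_congr e, of_def hF, e2, hF] at e1
  obtain rfl := og_def h.prime a0 b0 e1
  let P : Sylow p G := default
  have e3 := Tr.index_eq h ht P
  obtain ⟨j, e4⟩ := IsPGroup.iff_card.1 P.isPGroup'
  have e5 : Nat.card S = Fintype.card F * (Fintype.card F ^ 2 - 1) := by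
    rw [Nat.card_congr e.toEquiv, oe_card]
  have q0 : 0 < Fintype.card F ^ 2 - 1 := by
    have : 4 ^ 2 ≤ Fintype.card F ^ 2 := Nat.pow_le_pow_left h4 2
    omega
  have e6 : Fintype.card F * S.index = p ^ j := by
    apply Nat.eq_of_mul_eq_mul_right q0
    rw [mul_right_comm, ← e5, S.card_mul_index, ← (P : Subgroup G).card_mul_index, e3, e4, e2, hF, ← pow_mul,
      mul_comm a]
  obtain ⟨k, -, e7⟩ := (Nat.dvd_prime_pow h.prime).1 (Dvd.intro_left _ e6)
  have hC := od_cent hO S (k := k) (e7 ▸ Subgroup.relIndex_dvd_index_of_normal S _)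
  obtain ⟨π, h1, h2⟩ := oe_aut S h4 e
  have e8 : Nat.card (Subgroup.centralizer (S : Set G)) = if Odd (Fintype.card F) then 2 else 1 := by
    rw [hC, Subgroup.card_map_of_injective S.subtype_injective, Nat.card_congr (Subgroup.centerCongr e).toEquiv,
      oe_center]
  have e9 : Nat.card π.ker = S.relIndex π.ker * Nat.card S := by
    rw [← (S.subgroupOf π.ker).index_mul_card, Nat.card_congr (Subgroup.subgroupOfEquivOfLe h1).toEquiv]
    rfl
  rw [e9, e8] at h2
  replace h2 := Nat.dvd_of_mul_dvd_mul_right Nat.card_pos h2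
  have h3 : S.relIndex π.ker ∣ p ^ k := e7 ▸ Subgroup.relIndex_dvd_index_of_normal S _
  have h5 : π.ker ≤ S := by
    rw [← Subgroup.relIndex_eq_one]
    split_ifs at h2 with c
    · rw [hF, Nat.odd_pow_iff a0.ne'] at c
      exact Nat.eq_one_of_dvd_coprimes (Nat.coprime_two_left.2 c.pow) h2 h3
    · exact Nat.dvd_one.1 h2
  haveI := (KSG.card_ringAut F hF).2
  obtain ⟨⟨_, g, rfl⟩, hg⟩ := IsCyclic.exists_generator (α := π.range)
  refine ⟨F, inferInstance, inferInstance, ⟨a, hF⟩, by omega, S, inferInstance, ⟨e⟩, ⟨k, e7⟩, ⟨g, ?_⟩, hC⟩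
  rw [eq_top_iff]
  intro x _
  obtain ⟨i, hi⟩ := Subgroup.mem_zpowers_iff.1 (hg ⟨π x, x, rfl⟩)
  have hi' : π g ^ i = π x := by simpa using congrArg Subtype.val hi
  have := Subgroup.mul_mem_sup (h5 (show x * (g ^ i)⁻¹ ∈ π.ker by
    rw [MonoidHom.mem_ker, map_mul, map_inv, map_zpow, hi', mul_inv_cancel])) (Subgroup.zpow_mem_zpowers g i)
  rwa [inv_mul_cancel_right] at this

end Cfsg.Agent.Gag
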