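import Cfsg.Agent.Gag.Bas2
import Cfsg.Agent.Gag.OD
import Cfsg.Agent.Gag.OE

set_option autoImplicit false
set_option linter.unusedSectionVars false
open Matrix MatrixGroups Cfsg.Agent.Perm.Fpf Cfsg.Agent.PLocal

namespace Cfsg.Agent.Gag

universe u v
variable {p : ℕ} {G : Type u} {V : Type v} [Group G] [Finite G] [AddCommGroup V] [Finite V] [DistribMulAction G V]

theorem oj_card (h : Sr 3 G V) (ht : Tr G V) : ∃ k, Nat.card G = 3 ^ k * (Nat.card V - 1) := by
  haveI : Fact (Nat.Prime 3) := ⟨Nat.prime_three⟩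
  obtain ⟨P⟩ : Nonempty (Sylow 3 G) := inferInstance
  obtain ⟨k, hk⟩ := IsPGroup.iff_card.1 P.isPGroup'
  exact ⟨k, by rw [← Tr.index_eq h ht P, ← hk, Subgroup.card_mul_index]⟩

theorem oj_z (S : Subgroup G) {F : Type} [Field F] [Fintype F] (hF : Odd (Fintype.card F))
    (e : S ≃* SL(2, F)) : Nat.card (Subgroup.center S) = 2 := by
  rw [Nat.card_congr (Subgroup.centerCongr e).toEquiv, oe_center, if_pos hF]

/-- `|G : P| = 80` (`Tr.index_eq`), `|G| = 3^k * 80`, `|S| = 120`. `C = C_G(S)`: `4 ∤ |C|` (`od_four`), `5 ∤ |C|` (`od_odd`), `|C ⊓ S| = |Z(S)| = 2`, so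
`S.relIndex C` is a power of 3; `od_cent`; `|C| = 2`. `oe_prime`: `|G| ∣ 240`; `80 ∣ |G|`, `120 ∣ |G|`, so `|G| = 240`, index 2. A complement has order 2,
its involution equals the involution of `S` (`od_inv`). `oe_zmod`. -/
theorem oj5 (h : Sr 3 G V) (ht : Tr G V) (hO : pCore 3 G = ⊥) (S : Subgroup G) [S.Normal]
    {F : Type} [Field F] [Fintype F] (hF : Fintype.card F = 5) (e : S ≃* SL(2, F))
    (hV : Nat.card V = 3 ^ 4) : C2 G := by
  haveI : Fact (Nat.Prime 3) := ⟨Nat.prime_three⟩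
  haveI : Fact (Nat.Prime 5) := ⟨by norm_num⟩
  obtain ⟨k, hk⟩ := oj_card h ht
  rw [hV] at hk
  have hodd : Odd (Fintype.card F) := by rw [hF]; decide
  have hS : Nat.card S = 120 := by rw [Nat.card_congr e.toEquiv, oe_card, hF]; norm_num
  have hZ := oj_z S hodd e
  have hZ' : Nat.card ((Subgroup.center S).map S.subtype) = 2 := by
    rw [Subgroup.card_map_of_injective S.subtype_injective, hZ]
  set C := Subgroup.centralizer (S : Set G) with hC
  have h4 : ¬ 4 ∣ Nat.card C := od_four h (by norm_num) S hodd e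
  have h5 : ¬ 5 ∣ Nat.card C := od_odd h S (by norm_num) (by norm_num) (by rw [hS]; norm_num)
    (by rw [hZ]; norm_num)
  have hle : (Subgroup.center S).map S.subtype ≤ S ⊓ C := by
    rintro _ ⟨z, hz, rfl⟩
    exact ⟨z.2, Subgroup.mem_centralizer_iff.2 fun s hs =>
      congrArg Subtype.val (Subgroup.mem_center_iff.1 hz ⟨s, hs⟩)⟩
  obtain ⟨d, hd⟩ : 2 ∣ Nat.card (S.subgroupOf C) := by
    rw [← Subgroup.inf_subgroupOf_right,
      Nat.card_congr (Subgroup.subgroupOfEquivOfLe (inf_le_right : S ⊓ C ≤ C)).toEquiv, ← hZ']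
    exact Subgroup.card_dvd_of_le hle
  have hm : Nat.card (S.subgroupOf C) * S.relIndex C = Nat.card C := (S.subgroupOf C).card_mul_index
  have hi : S.relIndex C ∣ Nat.card C := Dvd.intro_left _ hm
  have hi2 : ¬ 2 ∣ S.relIndex C := fun ⟨c, hc⟩ => h4 ⟨d * c, by rw [← hm, hd, hc]; ring⟩
  have hi5 : ¬ 5 ∣ S.relIndex C := fun hc => h5 (hc.trans hi)
  have hi3 : S.relIndex C ∣ 3 ^ k := by
    have a1 : S.relIndex C ∣ 3 ^ k * 2 ^ 4 * 5 := by
      have := hi.trans (Subgroup.card_subgroup_dvd_card C)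
      rw [hk] at this
      rwa [mul_assoc]
    have a2 := Nat.Coprime.dvd_of_dvd_mul_right
      ((Nat.Prime.coprime_iff_not_dvd (by norm_num)).2 hi5).symm a1
    exact Nat.Coprime.dvd_of_dvd_mul_right (Nat.Coprime.pow_right 4
      ((Nat.Prime.coprime_iff_not_dvd (by norm_num)).2 hi2).symm) a2
  have hCe : C = (Subgroup.center S).map S.subtype := od_cent hO S hi3
  have hG := oe_prime S (by omega) (by rw [hF]; norm_num) e
  rw [← hC, hCe, hZ', hS] at hG
  have hix := S.card_mul_index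
  rw [hS] at hix
  have hidx : S.index = 2 := by
    have a1 : S.index ∣ 2 := by
      rw [← hix, mul_comm 2] at hG
      exact Nat.dvd_of_mul_dvd_mul_left (by norm_num) hG
    rcases (Nat.dvd_prime Nat.prime_two).1 a1 with a2 | a2
    · rw [a2] at hix
      omega
    · exact a2
  obtain ⟨e5⟩ := oe_zmod (r := 5) hF
  refine ⟨S, inferInstance, hidx, ⟨e.trans e5⟩, hCe, fun K hK => ?_⟩
  haveI : Fact (Nat.Prime 2) := ⟨Nat.prime_two⟩
  have hKc : Nat.card K = 2 := by rw [← hK.symm.index_eq_card, hidx]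
  obtain ⟨t, ht2⟩ := exists_prime_orderOf_dvd_card' (G := K) 2 (by rw [hKc])
  obtain ⟨s, hs2⟩ := exists_prime_orderOf_dvd_card' (G := S) 2 (by rw [hS]; norm_num)
  rw [← Subgroup.orderOf_coe] at ht2 hs2
  have hst := od_inv h (by norm_num) hs2 ht2
  have h1 : (s : G) ∈ S ⊓ K := ⟨s.2, hst ▸ t.2⟩
  rw [hK.disjoint.eq_bot, Subgroup.mem_bot] at h1
  rw [h1, orderOf_one] at hs2
  omega

/-- `|G| = 3^k * 728`, `|S| = 2184 = 3 * 728`, so `S.index` is a power of 3; `od_cent`, `|C| = 2`, `oe_prime`: `S.index ∣ 2`, so `S = ⊤`. -/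
theorem oj13 (h : Sr 3 G V) (ht : Tr G V) (hO : pCore 3 G = ⊥) (S : Subgroup G) [S.Normal]
    {F : Type} [Field F] [Fintype F] (hF : Fintype.card F = 13) (e : S ≃* SL(2, F))
    (hV : Nat.card V = 3 ^ 6) : Nonempty (G ≃* SL(2, ZMod 13)) := by
  haveI : Fact (Nat.Prime 3) := ⟨Nat.prime_three⟩
  haveI : Fact (Nat.Prime 13) := ⟨by norm_num⟩
  obtain ⟨k, hk⟩ := oj_card h ht
  rw [hV] at hk
  have hodd : Odd (Fintype.card F) := by rw [hF]; decide
  have hS : Nat.card S = 2184 := by rw [Nat.card_congr e.toEquiv, oe_card, hF]; norm_num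
  have hZ := oj_z S hodd e
  have hZ' : Nat.card ((Subgroup.center S).map S.subtype) = 2 := by
    rw [Subgroup.card_map_of_injective S.subtype_injective, hZ]
  have hix := S.card_mul_index
  rw [hS] at hix
  have h3 : S.index ∣ 3 ^ k := ⟨3, by omega⟩
  have hCe := od_cent hO S ((S.relIndex_dvd_index_of_normal _).trans h3)
  have hG := oe_prime S (by omega) (by rw [hF]; norm_num) e
  rw [hCe, hZ', hS, ← hix, mul_comm 2] at hG
  have a1 : S.index ∣ 2 := Nat.dvd_of_mul_dvd_mul_left (by norm_num) hG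
  have a2 : S.index = 1 := Nat.eq_one_of_dvd_coprimes
    (Nat.Coprime.pow_right k (show Nat.Coprime 2 3 by norm_num)) a1 h3
  obtain ⟨e13⟩ := oe_zmod (r := 13) hF
  obtain rfl := Subgroup.index_eq_one.1 a2
  exact ⟨Subgroup.topEquiv.symm.trans (e.trans e13)⟩

end Cfsg.Agent.Gag
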