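import Cfsg.Agent.Gag.Bas2

set_option autoImplicit false
set_option linter.unusedSectionVars false
open Matrix MatrixGroups Cfsg.Agent.Perm.Fpf Cfsg.Agent.PLocal

namespace Cfsg.Agent.Gag

universe u v
variable {p : ℕ} {G : Type u} {V : Type v} [Group G] [Finite G] [AddCommGroup V] [Finite V] [DistribMulAction G V]

/-- `f` of order prime to `p` centralised by the nonabelian `S`. Make `V` a module over the `F_p`-algebra generated by `ρ f` (e.g. `Module.AEval'` over
`(ZMod p)[X]`, or work with `f`-invariant additive subgroups). Let `U ≠ 0` be a minimal `f`-invariant subgroup. `⟨f⟩` acts freely on `U \ 0` (`fpf`):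
`orderOf f + 1 ≤ |U|`. If `U = V`: `V = ℤ[f] v` is cyclic, so every endomorphism commuting with `f` is a polynomial in `f` (`s v = P(f) v` gives `s = P(f)` on `V`), so
`S` is abelian (faithful). So `U ≠ V`; `⟨f⟩` acts freely on `V / U \ 0` too (if `g v - v ∈ U`, `g ≠ 1` a power of `f`: `g - 1` is injective, so bijective on `U`,
`g v - v = g u - u`, `v = u`). So `|V| = |U| |V / U| ≥ (orderOf f + 1)²`. -/
theorem ok1 (h : Sr p G V) {f : G} (hf : (orderOf f).Coprime p) (S : Subgroup G)
    (hS : ¬ IsMulCommutative S) (hc : ∀ s ∈ S, Commute f s) : (orderOf f + 1) ^ 2 ≤ Nat.card V := by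
  haveI := h.nontriv
  obtain ⟨v, hv⟩ := exists_ne (0 : V)
  have fp : ∀ k ∈ Subgroup.zpowers f, ∀ w : V, k • w = w → w ≠ 0 → k = 1 := by
    intro k hk w e hw
    by_contra h1
    exact hw (h.fpf (Nat.Coprime.coprime_dvd_left (orderOf_dvd_of_mem_zpowers hk) hf) h1 e)
  let U : AddSubgroup V := AddSubgroup.closure {w | ∃ g ∈ Subgroup.zpowers f, g • v = w}
  have hU : ∀ k ∈ Subgroup.zpowers f, ∀ u ∈ U, k • u ∈ U := by
    intro k hk u hu
    induction hu using AddSubgroup.closure_induction with
    | mem x hx =>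
      obtain ⟨g, hg, rfl⟩ := hx
      exact AddSubgroup.subset_closure ⟨k * g, mul_mem hk hg, mul_smul _ _ _⟩
    | zero => rw [smul_zero]; exact zero_mem _
    | add x y _ _ hx hy => rw [smul_add]; exact add_mem hx hy
    | neg x _ hx => rw [smul_neg]; exact neg_mem hx
  have hcz : ∀ g ∈ Subgroup.zpowers f, ∀ s ∈ S, Commute g s := by
    rintro g ⟨i, rfl⟩ s hs
    exact (hc s hs).zpow_left i
  have hne : ∃ w, w ∉ U := by
    by_contra hn
    push Not at hn
    have key : ∀ w ∈ U, ∃ φ : AddMonoid.End V, (∀ s ∈ S, Commute φ (ρ V s)) ∧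
        (∀ g ∈ Subgroup.zpowers f, Commute φ (ρ V g)) ∧ φ v = w := by
      intro w hw
      induction hw using AddSubgroup.closure_induction with
      | mem x hx =>
        obtain ⟨g, hg, rfl⟩ := hx
        refine ⟨ρ V g, fun s hs => (hcz g hg s hs).map _, fun k hk => Commute.map ?_ _, rfl⟩
        obtain ⟨i, rfl⟩ := hg
        obtain ⟨j, rfl⟩ := hk
        exact Commute.zpow_zpow_self f i j
      | zero => exact ⟨0, fun _ _ => Commute.zero_left _, fun _ _ => Commute.zero_left _, rfl⟩
      | add x y _ _ hx hy =>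
        obtain ⟨φ, a1, a2, rfl⟩ := hx
        obtain ⟨ψ, b1, b2, rfl⟩ := hy
        exact ⟨φ + ψ, fun s hs => (a1 s hs).add_left (b1 s hs),
          fun s hs => (a2 s hs).add_left (b2 s hs), rfl⟩
      | neg x _ hx =>
        obtain ⟨φ, a1, a2, rfl⟩ := hx
        exact ⟨-φ, fun s hs => (a1 s hs).neg_left, fun s hs => (a2 s hs).neg_left, rfl⟩
    refine hS ⟨⟨fun s t => Subtype.ext (h.ρ_inj ?_)⟩⟩
    obtain ⟨φ, a1, a2, e⟩ := key _ (hn ((s : G) • v))
    have e2 : ∀ w ∈ U, φ w = (s : G) • w := by
      intro w hw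
      induction hw using AddSubgroup.closure_induction with
      | mem x hx =>
        obtain ⟨g, hg, rfl⟩ := hx
        have e3 : φ (g • v) = g • φ v := DFunLike.congr_fun (a2 g hg).eq v
        rw [e3, e, ← mul_smul, ← mul_smul, (hcz g hg s s.2).eq]
      | zero => rw [map_zero, smul_zero]
      | add x y _ _ hx hy => rw [map_add, smul_add, hx, hy]
      | neg x _ hx => rw [map_neg, smul_neg, hx]
    have e4 : φ = ρ V (s : G) := AddMonoidHom.ext fun w => e2 w (hn w)
    rw [Subgroup.coe_mul, Subgroup.coe_mul, map_mul, map_mul, ← e4]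
    exact (a1 t t.2).eq
  obtain ⟨w, hw⟩ := hne
  have c0 : Nat.card (Option (Subgroup.zpowers f)) = orderOf f + 1 := by
    rw [Finite.card_option, Nat.card_zpowers]
  have c1 : orderOf f + 1 ≤ Nat.card U := by
    rw [← c0]
    refine Nat.card_le_card_of_injective (fun o => Option.elim o (0 : U)
      fun g => ⟨(g : G) • v, AddSubgroup.subset_closure ⟨g, g.2, rfl⟩⟩) ?_
    rintro (_ | a) (_ | b) e
    · rfl
    · exact absurd (congrArg Subtype.val e).symm (b2_ne hv _)
    · exact absurd (congrArg Subtype.val e) (b2_ne hv _)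
    · have e1 : (a : G) • v = (b : G) • v := congrArg Subtype.val e
      have := fp ((b : G)⁻¹ * a) (mul_mem (inv_mem b.2) a.2) v (by rw [mul_smul, e1, inv_smul_smul]) hv
      rw [inv_mul_eq_one] at this
      rw [Subtype.ext this]
  have hnm : ∀ g : Subgroup.zpowers f, ((((g : G) • w : V)) : V ⧸ U) ≠ 0 := fun g e => by
    have := hU _ (inv_mem g.2) _ ((QuotientAddGroup.eq_zero_iff _).1 e)
    rw [inv_smul_smul] at this
    exact hw this
  have c2 : orderOf f + 1 ≤ Nat.card (V ⧸ U) := by
    rw [← c0]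
    refine Nat.card_le_card_of_injective (fun o => Option.elim o (0 : V ⧸ U)
      fun g => (((g : G) • w : V) : V ⧸ U)) ?_
    rintro (_ | a) (_ | b) e
    · rfl
    · exact absurd e.symm (hnm _)
    · exact absurd e (hnm _)
    · have e1 : -((a : G) • w) + (b : G) • w ∈ U := QuotientAddGroup.eq.1 e
      have hk : (a : G)⁻¹ * b ∈ Subgroup.zpowers f := mul_mem (inv_mem a.2) b.2
      have e2 := hU _ (inv_mem a.2) _ e1
      rw [smul_add, smul_neg, inv_smul_smul, ← mul_smul] at e2
      by_contra hab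
      have k1 : (a : G)⁻¹ * b ≠ 1 := fun e' => hab (by rw [Subtype.ext (inv_mul_eq_one.1 e')])
      generalize (a : G)⁻¹ * b = k at hk e2 k1
      have inj : Function.Injective
          (fun u : U => (⟨-(u : V) + k • (u : V), add_mem (neg_mem u.2) (hU k hk _ u.2)⟩ : U)) := by
        intro x y e'
        have e3 : -(x : V) + k • (x : V) = -(y : V) + k • (y : V) := congrArg Subtype.val e'
        by_contra hxy
        refine k1 (fp k hk ((x : V) - y) ?_ fun e4 => hxy (Subtype.ext (sub_eq_zero.1 e4)))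
        rw [smul_sub]
        linear_combination (norm := abel1) e3
      obtain ⟨u, hu⟩ := Finite.injective_iff_surjective.1 inj ⟨_, e2⟩
      have e3 : -(u : V) + k • (u : V) = -w + k • w := congrArg Subtype.val hu
      refine k1 (fp k hk ((u : V) - w) ?_ fun e4 => hw (sub_eq_zero.1 e4 ▸ u.2))
      rw [smul_sub]
      linear_combination (norm := abel1) e3
  rw [AddSubgroup.card_eq_card_quotient_mul_card_addSubgroup U, sq]
  exact Nat.mul_le_mul c2 c1

end Cfsg.Agent.Gag
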