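import Cfsg.Agent.Gag.Bas2
import Cfsg.Agent.Gag.OA

set_option autoImplicit false
set_option linter.unusedSectionVars false
open Matrix MatrixGroups Cfsg.Agent.Perm.Fpf Cfsg.Agent.PLocal

namespace Cfsg.Agent.Gag

universe u v
variable {p : ℕ} {G : Type u} {V : Type v} [Group G] [Finite G] [AddCommGroup V] [Finite V] [DistribMulAction G V]

/-- `C` solvable with `O_p(C) = 1`, `4 ∤ |C|`. `F = F(C)` is nilpotent of order prime to `p` with cyclic Sylow subgroups (`Sr.cyc`; order `≤ 2` for `r = 2`), so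
cyclic, `F = ⟨f⟩` (e.g. abelian, then `abCyc`). `C' ≤ C_C(F) ≤ F` (`Suz.commutator_le_centralizer_of_isCyclic`, `Grp.centralizer_fitting_le`), so `C = F N(P)`
(`P F ⊴ C`, Frattini) and `|Syl_p(C)| = |C : N(P)| ≤ |F|`. Here `C` is the ambient group `G`. -/
theorem ok2 [Fact p.Prime] (h : Sr p G V) (hO : pCore p G = ⊥) [Group.IsSolvable G] (h4 : ¬ 4 ∣ Nat.card G) :
    ∃ f : G, (orderOf f).Coprime p ∧ Nat.card (Sylow p G) ≤ orderOf f := by
  classical
  set F := fittingSubgroup G with hFdef
  have hbot : ∀ K : Subgroup G, IsPGroup p K → K ≤ F → K = ⊥ := fun K hK hle =>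
    le_bot_iff.mp (hO ▸ Grp.le_pCore_of_le_fitting hK hle)
  have hFp : (Nat.card F).Coprime p := by
    rw [Nat.coprime_comm, Nat.Prime.coprime_iff_not_dvd h.prime]
    intro hd
    obtain ⟨x, hx⟩ := exists_prime_orderOf_dvd_card' p hd
    have hx' : orderOf (x : G) = p := by rw [Subgroup.orderOf_coe]; exact hx
    have hK : IsPGroup p (Subgroup.zpowers (x : G)) :=
      IsPGroup.of_card (n := 1) (by rw [Nat.card_zpowers, hx', pow_one])
    have h1 := hbot _ hK ((Subgroup.zpowers_le).mpr x.2)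
    rw [Subgroup.zpowers_eq_bot] at h1
    rw [h1, orderOf_one] at hx'
    exact h.prime.one_lt.ne hx'
  have : IsZGroup F := ⟨fun r hr P => by
    have := Fact.mk hr
    have hK : IsPGroup r ((P : Subgroup F).map F.subtype) := P.isPGroup'.map _
    have e := (P : Subgroup F).equivMapOfInjective F.subtype F.subtype_injective
    suffices hc : IsCyclic ((P : Subgroup F).map F.subtype) from
      isCyclic_of_surjective e.symm e.symm.surjective
    by_cases hrp : r = p
    · subst hrp
      rw [hbot _ hK (Subgroup.map_subtype_le _)]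
      infer_instance
    by_cases hr2 : r = 2
    · subst hr2
      obtain ⟨k, hk⟩ := hK.exists_card_eq
      have hd : 2 ^ k ∣ Nat.card G := hk ▸ Subgroup.card_subgroup_dvd_card _
      have hk1 : k ≤ 1 := by
        by_contra hlt
        exact h4 ((pow_dvd_pow 2 (by omega : 2 ≤ k)).trans hd)
      refine isCyclic_of_card_dvd_prime (p := 2) ?_
      rw [hk]
      simpa using pow_dvd_pow 2 hk1
    · exact h.cyc hrp hr2 hK⟩
  have hcyc : IsCyclic F := inferInstance
  obtain ⟨f, hf⟩ := IsCyclic.exists_ofOrder_eq_natCard (α := F)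
  refine ⟨f, by rw [Subgroup.orderOf_coe, hf]; exact hFp, ?_⟩
  rw [Subgroup.orderOf_coe, hf]
  have hcomm : commutator G ≤ F :=
    (Suz.commutator_le_centralizer_of_isCyclic F).trans (Grp.centralizer_fitting_le G)
  obtain ⟨P⟩ : Nonempty (Sylow p G) := inferInstance
  have hN : ((P : Subgroup G) ⊔ F).Normal :=
    Subgroup.Normal.of_commutator_le G (hcomm.trans le_sup_right)
  have htop := P.normalizer_sup_eq_top' (N := (P : Subgroup G) ⊔ F) le_sup_left
  have htop' : F ⊔ Subgroup.normalizer (P : Set G) = ⊤ := by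
    rw [eq_top_iff, ← htop]
    exact sup_le le_sup_right (sup_le (Subgroup.le_normalizer.trans le_sup_right) le_sup_left)
  refine Nat.card_le_card_of_surjective (fun x : F => (x : G) • P) fun Q => ?_
  obtain ⟨g, rfl⟩ := MulAction.exists_smul_eq G P Q
  have hg : g ∈ F ⊔ Subgroup.normalizer (P : Set G) := htop' ▸ Subgroup.mem_top g
  obtain ⟨x, hx, y, hy, rfl⟩ := Subgroup.mem_sup_of_normal_left.mp hg
  refine ⟨⟨x, hx⟩, ?_⟩
  simp only [mul_smul, Sylow.smul_eq_iff_mem_normalizer.mpr hy]

end Cfsg.Agent.Gag
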