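import Cfsg.Agent.Gag.Bas2
import Cfsg.Agent.S0689
import Cfsg.Agent.S0690

set_option autoImplicit false
set_option linter.unusedSectionVars false
open Matrix MatrixGroups Cfsg.Agent.Perm.Fpf Cfsg.Agent.PLocal

namespace Cfsg.Agent.Gag

universe u v
variable {p : ℕ} {G : Type u} {V : Type v} [Group G] [Finite G] [AddCommGroup V] [Finite V] [DistribMulAction G V]

theorem ol_pow {p q m : ℕ} (hp : p.Prime) (hq : q.Prime) (e : p ^ m = q ^ 2) : p = q := by
  have : q ∣ p ^ m := e ▸ dvd_pow_self q two_ne_zero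
  exact ((Nat.prime_dvd_prime_iff_eq hq hp).1 (hq.dvd_of_dvd_pow this)).symm

theorem ol_fpf (h : Sr p G V) (hp : ¬ p ∣ Nat.card G) {g : G} (h1 : g ≠ 1) {v : V} (hv : g • v = v) : v = 0 :=
  h.fpf (Nat.Coprime.coprime_dvd_left (orderOf_dvd_natCard g)
    ((Nat.Prime.coprime_iff_not_dvd h.prime).2 hp).symm) h1 hv

theorem ol_aux [Fact p.Prime] [Module (ZMod p) V] (h : Sr p G V) (ht : Tr G V) (hp : ¬ p ∣ Nat.card G)
    (hns : ¬ Group.IsSolvable G) : C4 p G := by
  let φ : G →* (V ≃ₗ[ZMod p] V) :=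
    { toFun := fun g =>
        { DistribMulAction.toAddEquiv V g with
          map_smul' := fun c v => ZMod.map_smul (DistribMulAction.toAddEquiv V g) c v }
      map_one' := LinearEquiv.ext fun v => one_smul G v
      map_mul' := fun a b => LinearEquiv.ext fun v => mul_smul a b v }
  have hφ : ∀ g v, φ g v = g • v := fun _ _ => rfl
  have inj : Function.Injective φ := (injective_iff_map_eq_one φ).2 fun g hg =>
    h.faith g fun v => by rw [← hφ, hg]; rfl
  let e : G ≃* φ.range := MonoidHom.ofInjective inj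
  obtain ⟨m, -, hm⟩ := h.card_V
  have key := S0689.result φ.range (fun v w hv hw => by
      obtain ⟨g, hg⟩ := ht v w hv hw
      refine ⟨⟨φ g, g, rfl⟩, hg, ?_⟩
      rintro ⟨_, k, rfl⟩ hk
      have hk' : k • v = w := hk
      have : g⁻¹ * k = 1 := by
        by_contra c
        exact hv (ol_fpf h hp c (by rw [mul_smul, hk', ← hg, inv_smul_smul]))
      exact Subtype.ext (congrArg φ (inv_mul_eq_one.1 this).symm))
    (fun hs => hns (Group.isSolvable_of_surjective (f := e.symm.toMonoidHom) e.symm.surjective))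
  rw [hm] at key
  rcases key with ⟨c, ⟨f⟩⟩ | ⟨c, ⟨f⟩⟩ | ⟨c, ⟨f⟩⟩
  · exact .inl ⟨ol_pow h.prime (by norm_num) c, ⟨e.trans f⟩⟩
  · exact .inr (.inl ⟨ol_pow h.prime (by norm_num) c, ⟨e.trans f⟩⟩)
  · exact .inr (.inr ⟨ol_pow h.prime (by norm_num) c, ⟨e.trans f⟩⟩)

/-- `V` is a `ZMod p`-module (`AddCommGroup.zmodModule h.tors`); `G` embeds in `V ≃ₗ[ZMod p] V` (additive maps are linear); the range is regular on nonzero
vectors (`Tr`, `fpf`); `S0689.result`; `|V| = p^m` (`card_V`) gives `p = 11, 29, 59`. -/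
theorem ol_reg (h : Sr p G V) (ht : Tr G V) (hp : ¬ p ∣ Nat.card G) (hns : ¬ Group.IsSolvable G) : C4 p G := by
  haveI := Fact.mk h.prime
  letI : Module (ZMod p) V := AddCommGroup.zmodModule h.tors
  exact ol_aux h ht hp hns

/-- a perfect nontrivial group of order prime to `p` (`Perm.Fpf.equiv_SL25_of_occurs`, `occurs_of_isFpf` on `Multiplicative V`, see `Sr.abCyc`, `S0690`) -/
theorem ol_sl25 (h : Sr p G V) (hp : ¬ p ∣ Nat.card G) (hP : Group.IsPerfect G) [Nontrivial G] :
    Nonempty (G ≃* SL(2, ZMod 5)) := by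
  haveI := h.nontriv
  let φ : G →* MulAut (Multiplicative V) :=
    { toFun := fun g => AddEquiv.toMultiplicative (DistribMulAction.toAddEquiv V g)
      map_one' := MulEquiv.ext fun v => congrArg Multiplicative.ofAdd (one_smul G v.toAdd)
      map_mul' := fun a b => MulEquiv.ext fun v =>
        congrArg Multiplicative.ofAdd (mul_smul a b v.toAdd) }
  refine equiv_SL25_of_occurs (FGS.FrobCompl.occurs_of_isFpf φ fun a v hv => ?_) hP.commutator_eq_top
  by_cases ha : a = 1
  · exact Or.inl ha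
  · exact Or.inr (ol_fpf h hp ha (v := v.toAdd) (congrArg Multiplicative.toAdd hv))

end Cfsg.Agent.Gag
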