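import Cfsg.Agent.Gag.Def
import Cfsg.Agent.Gag.Bas1
import Cfsg.Agent.Gag.Bas2
import Cfsg.Agent.Grp.Fitting
import Cfsg.Agent.Solv.Misc1
import Cfsg.Agent.S0205

set_option autoImplicit false
set_option linter.unusedSectionVars false
open Matrix MatrixGroups

namespace Cfsg.Agent.Gag

universe u v
variable {p : ℕ} {G : Type u} {V : Type v} [Group G] [Finite G] [AddCommGroup V] [Finite V] [DistribMulAction G V]

/-- `O_p(G)` lies in every Sylow subgroup, so in every stabiliser (`Sy.exists_sylow`), so acts trivially. -/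
theorem Sy.pCore_bot (h : Sr p G V) (hs : Sy p G V) : pCore p G = ⊥ := by
  rw [eq_bot_iff]
  intro g hg
  rw [Subgroup.mem_bot]
  refine h.faith g fun v => ?_
  by_cases hv : v = 0
  · rw [hv, smul_zero]
  · obtain ⟨P, hP⟩ := Sy.exists_sylow h hs hv
    have h1 : g ∈ (P : Subgroup G) := Grp.pCore_le_sylow P hg
    rw [hP] at h1
    exact h1

/-- a nilpotent normal subgroup of odd order is cyclic of order prime to `p` (its Sylow `p` is characteristic, so `⊥` by
`eq_bot_of_normal_pgroup`; the others are cyclic by `Sr.cyc`; nilpotent Z-group, see `FGS/RankOneStruct`). -/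
theorem pcore_cyc (h : Sr p G V) (hO : pCore p G = ⊥) (N : Subgroup G) [N.Normal] (hn : Group.IsNilpotent N)
    (ho : Odd (Nat.card N)) : IsCyclic N ∧ (Nat.card N).Coprime p := by
  have hp : Fact p.Prime := ⟨h.prime⟩
  have hb : pCore p N = ⊥ := pCore_sub_eq_bot hO N
  have hc : (Nat.card N).Coprime p := by
    have h1 := Grp.not_dvd_index_pCore_of_isNilpotent (G := N) p
    rw [hb, Subgroup.index_bot] at h1
    exact ((Nat.Prime.coprime_iff_not_dvd h.prime).2 h1).symm
  refine ⟨?_, hc⟩
  have hz : IsZGroup N := by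
    refine ⟨fun q hq Q => ?_⟩
    have := Fact.mk hq
    by_cases hd : q ∣ Nat.card N
    · refine (h.sub N).cyc (q := q) ?_ ?_ Q.isPGroup'
      · rintro rfl
        exact (Nat.Prime.coprime_iff_not_dvd hq).1 hc.symm hd
      · rintro rfl
        exact (Nat.not_even_iff_odd.2 ho) (even_iff_two_dvd.2 hd)
    · obtain ⟨k, hk⟩ := IsPGroup.iff_card.1 Q.isPGroup'
      have h1 : Nat.card (Q : Subgroup N) ∣ Nat.card N := Subgroup.card_subgroup_dvd_card _
      have h2 : k = 0 := by
        by_contra h0
        exact hd ((dvd_pow_self q h0).trans (hk ▸ h1))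
      rw [h2, pow_zero] at hk
      have : Subsingleton (Q : Subgroup N) := (Nat.card_eq_one_iff_unique.1 hk).1
      infer_instance
  infer_instance

/-- `N` is solvable (odd order theorem, `ca find isSolvable_of_odd`), `F = F(N)` (mapped into `G`) is normal in `G`, cyclic
(`pcore_cyc`), so centralised by `G' = G` (`Suz.commutator_le_centralizer_of_isCyclic`); `C_N(F) ≤ F`
(`Grp.centralizer_fitting_le`) gives `N = F`. -/
theorem pcore_central (h : Sr p G V) (hO : pCore p G = ⊥) (hP : commutator G = ⊤) (N : Subgroup G) [N.Normal]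
    (ho : Odd (Nat.card N)) : N ≤ Subgroup.center G ∧ (Nat.card N).Coprime p := by
  have hs : Group.IsSolvable N := Cfsg.Agent.S0205.result ho
  let F : Subgroup G := (fittingSubgroup N).map N.subtype
  have hFN : F ≤ N := Subgroup.map_subtype_le _
  have hFn : F.Normal := by
    have : F = fittingSubgroup G ⊓ N := Grp.map_fitting_eq_inf_of_normal N
    rw [this]; infer_instance
  have hFo : Odd (Nat.card F) := ho.of_dvd_nat (Subgroup.card_dvd_of_le hFN)
  obtain ⟨hc, hcp⟩ := pcore_cyc h hO F (Grp.isNilpotent_map_fitting N.subtype) hFo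
  have h1 : (⊤ : Subgroup G) ≤ Subgroup.centralizer (F : Set G) :=
    hP ▸ Solv.commutator_le_centralizer_of_isCyclic F
  have h2 : N ≤ F := by
    intro x hx
    refine ⟨⟨x, hx⟩, Grp.centralizer_fitting_le N ?_, rfl⟩
    intro y hy
    apply Subtype.ext
    exact h1 (Subgroup.mem_top x) y ⟨y, hy, rfl⟩
  have h3 : F = N := le_antisymm hFN h2
  refine ⟨fun x hx => Subgroup.mem_center_iff.2 fun g => ?_, h3 ▸ hcp⟩
  exact (h1 (Subgroup.mem_top g) x (h2 hx)).symm

/-- `p` odd: every involution acts as `-1` (`Sr.invol`), so by faithfulness there is at most one -/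
theorem Sr.invol_eq (h : Sr p G V) (h2 : p ≠ 2) {s t : G} (hs : orderOf s = 2) (ht : orderOf t = 2) : s = t := by
  apply h.ρ_inj
  ext v
  change s • v = t • v
  rw [h.invol h2 hs, h.invol h2 ht]

theorem Sr.rank (h : Sr p G V) (h2 : p ≠ 2) : PRankLE 2 1 G := by
  intro A _ hA
  have h1 : ∀ a : A, a ≠ 1 → orderOf (a : G) = 2 := fun a ha =>
    orderOf_eq_prime (hA a a.2) fun h0 => ha (Subtype.ext h0)
  classical
  have h3 : Function.Injective fun a : A => decide (a = 1) := by
    intro a b hab
    simp only [decide_eq_decide] at hab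
    by_cases ha : a = 1
    · rw [ha, hab.1 ha]
    · exact Subtype.ext (h.invol_eq h2 (h1 a ha) (h1 b fun hb => ha (hab.2 hb)))
  simpa using Nat.card_le_card_of_injective _ h3

/-- the last term of the derived series -/
theorem exists_perfect {H : Type*} [Group H] [Finite H] (hs : ¬ Group.IsSolvable H) :
    ∃ L : Subgroup H, L.Normal ∧ L ≠ ⊥ ∧ commutator L = ⊤ := by
  obtain ⟨_, ⟨k, rfl⟩, hk⟩ := (wellFounded_lt (α := Subgroup H)).has_min (Set.range (derivedSeries H))
    ⟨_, 0, rfl⟩
  have h1 : ⁅derivedSeries H k, derivedSeries H k⁆ = derivedSeries H k :=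
    eq_of_le_of_not_lt (Subgroup.commutator_le_left _ _) (hk _ ⟨k + 1, rfl⟩)
  refine ⟨derivedSeries H k, inferInstance, fun h0 => hs ⟨k, h0⟩, ?_⟩
  apply Subgroup.map_injective (derivedSeries H k).subtype_injective
  rw [_root_.commutator_def, Subgroup.map_commutator, ← MonoidHom.range_eq_map, Subgroup.range_subtype, h1]

end Cfsg.Agent.Gag
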