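import Cfsg.Agent.Gag.Def
import Cfsg.Agent.Gag.Bas2
import Cfsg.Agent.Gag.PAr0

set_option autoImplicit false
set_option linter.unusedSectionVars false
open Matrix MatrixGroups

namespace Cfsg.Agent.Gag

universe u v
variable {p : ℕ} {G : Type u} {V : Type v} [Group G] [Finite G] [AddCommGroup V] [Finite V] [DistribMulAction G V]

/-- `f` onto with central kernel of order prime to `p`. For `P` Sylow, `Q = P.mapSurjective`, `|P| = |Q|`, and
`N(P) = f⁻¹ N(Q)` (if `g` normalises `P ker f = P × ker f` it normalises its unique Sylow `P`), so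
`|N(P)| = |ker| |N(Q)|`; `|G| = |ker| |Y|`; every Sylow of `Y` is conjugate to `Q`. -/
theorem pquo_syl [Fact p.Prime] {Y : Type*} [Group Y] [Finite Y] (f : G →* Y) (hf : Function.Surjective f)
    (hz : f.ker ≤ Subgroup.center G) (hc : (Nat.card f.ker).Coprime p) (P : Sylow p G) (Q : Sylow p Y) :
    Nat.card (Sylow p G) = Nat.card (Sylow p Y) ∧
      (P : Subgroup G).relIndex (Subgroup.normalizer ((P : Subgroup G) : Set G)) =
        Nat.card f.ker * (Q : Subgroup Y).relIndex (Subgroup.normalizer ((Q : Subgroup Y) : Set Y)) := by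
  have hp : p.Prime := Fact.out
  have le : ∀ R R' : Sylow p G, R.mapSurjective hf = R'.mapSurjective hf → (R' : Subgroup G) ≤ R := by
    intro R R' e x hx
    have : f x ∈ (R.mapSurjective hf : Subgroup Y) := by
      rw [e, Sylow.coe_mapSurjective]; exact Subgroup.mem_map_of_mem f hx
    rw [Sylow.coe_mapSurjective] at this
    obtain ⟨y, hy, hxy⟩ := this
    have hk : y⁻¹ * x ∈ f.ker := by rw [MonoidHom.mem_ker, map_mul, map_inv, hxy, inv_mul_cancel]
    obtain ⟨k, hk1⟩ := R'.isPGroup' ⟨x, hx⟩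
    obtain ⟨l, hl1⟩ := R.isPGroup' ⟨y, hy⟩
    have hk2 : x ^ p ^ k = 1 := congrArg Subtype.val hk1
    have hl2 : y ^ p ^ l = 1 := congrArg Subtype.val hl1
    have c : Commute y (y⁻¹ * x) := Subgroup.mem_center_iff.1 (hz hk) y
    have e1 : (y⁻¹ * x) ^ p ^ (k + l) = 1 := by
      have := c.mul_pow (p ^ (k + l))
      rwa [mul_inv_cancel_left, pow_add, pow_mul, hk2, one_pow, mul_comm (p ^ k), pow_mul y, hl2,
        one_pow, one_mul, eq_comm, ← pow_add, add_comm] at this
    have e2 : (y⁻¹ * x) ^ Nat.card f.ker = 1 :=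
      congrArg Subtype.val (pow_card_eq_one' (x := (⟨_, hk⟩ : f.ker)))
    have e3 := pow_gcd_eq_one.2 ⟨e2, e1⟩
    rw [(hc.pow_right (k + l)).gcd_eq_one, pow_one, inv_mul_eq_one] at e3
    exact e3 ▸ hy
  have h1 : Nat.card (Sylow p G) = Nat.card (Sylow p Y) := Nat.card_eq_of_bijective
    (Sylow.mapSurjective hf) ⟨fun R R' e => Sylow.ext (le_antisymm (le _ _ e.symm) (le _ _ e)),
      Sylow.mapSurjective_surjective hf p⟩
  refine ⟨h1, ?_⟩
  have hG : Nat.card G = Nat.card f.ker * Nat.card Y := by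
    rw [← Subgroup.card_mul_index f.ker, Subgroup.index_ker, MonoidHom.range_eq_top.2 hf,
      Subgroup.card_top]
  have hPQ : Nat.card P = Nat.card Q := by
    rw [P.card_eq_multiplicity, Q.card_eq_multiplicity, hG,
      Nat.factorization_mul Nat.card_pos.ne' Nat.card_pos.ne', Finsupp.add_apply,
      Nat.factorization_eq_zero_of_not_dvd ((Nat.Prime.coprime_iff_not_dvd hp).1 hc.symm), zero_add]
  have a1 := Subgroup.relIndex_mul_index (Subgroup.le_normalizer (H := (P : Subgroup G)))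
  have a2 := Subgroup.relIndex_mul_index (Subgroup.le_normalizer (H := (Q : Subgroup Y)))
  have a3 := Subgroup.card_mul_index (P : Subgroup G)
  have a4 := Subgroup.card_mul_index (Q : Subgroup Y)
  have b1 : (Subgroup.normalizer ((P : Subgroup G) : Set G)).index = Nat.card (Sylow p Y) :=
    P.card_eq_index_normalizer.symm.trans h1
  have b2 : (Subgroup.normalizer ((Q : Subgroup Y) : Set Y)).index = Nat.card (Sylow p Y) :=
    Q.card_eq_index_normalizer.symm
  rw [b1] at a1
  rw [b2] at a2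
  rw [← a1, hG, ← a4, ← a2, hPQ] at a3
  refine Nat.eq_of_mul_eq_mul_left (Nat.mul_pos (Nat.card_pos (α := Q))
    (Nat.card_pos (α := Sylow p Y))) ?_
  linear_combination a3

/-- `Sy.points`, `Sy.norm_dvd`, `Sr.card_V`, `pquo_syl`, `par0`; `n_p(G) ≠ 1` since otherwise the Sylow subgroup is normal, so `⊥`
(`eq_bot_of_normal_pgroup`), against `p ∣ |G|`. -/
theorem pquo [Fact p.Prime] (h : Sr p G V) (hs : Sy p G V) (hO : pCore p G = ⊥) (hp : p ∣ Nat.card G)
    {Y : Type*} [Group Y] [Finite Y] (f : G →* Y) (hf : Function.Surjective f)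
    (hz : f.ker ≤ Subgroup.center G) (hc : (Nat.card f.ker).Coprime p) (Q : Sylow p Y) :
    ∃ b t t' : ℕ, 0 < b ∧ Nat.card V - 1 = Nat.card (Sylow p Y) * (p ^ b - 1) ∧
      Nat.card (Sylow p Y) = 1 + p ^ b * t ∧ t = 1 + p ^ b * t' ∧
      Nat.card f.ker * (Q : Subgroup Y).relIndex (Subgroup.normalizer ((Q : Subgroup Y) : Set Y)) ∣ p ^ b - 1 := by
  obtain ⟨P⟩ : Nonempty (Sylow p G) := inferInstance
  obtain ⟨h1, h2⟩ := pquo_syl f hf hz hc P Q
  obtain ⟨b, hb, e1, e2⟩ := Sy.points h hs P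
  obtain ⟨m, hm, e3⟩ := h.card_V
  have e4 := Sy.norm_dvd h P
  rw [h2, e1] at e4
  have n1 : Nat.card (Sylow p G) ≠ 1 := fun e => by
    have : Subsingleton (Sylow p G) := (Nat.card_eq_one_iff_unique.1 e).1
    exact P.ne_bot_of_dvd_card hp (eq_bot_of_normal_pgroup hO _ P.isPGroup')
  obtain ⟨t, t', e5, e6⟩ := par0 h.prime.one_lt hb hm (e3 ▸ e2) n1
  exact ⟨b, t, t', hb, h1 ▸ e2, h1 ▸ e5, e6, e4⟩

end Cfsg.Agent.Gag
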